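import Cfsg.Agent.H39.Isotypic
import Cfsg.Agent.H39.DegreeRatio
import Cfsg.Agent.H27.Dual

/-!
# An idempotent permuted by the intertwiners of a fully ramified section

In the setting `L ≤ K` normal, `σ'` irreducible on `K`, `σ`-isotypic on `L` and vanishing off `L`,
a subgroup `B` of exponent prime to `|K : L|` modulo `L`, abelian modulo `L` and faithful on
`K/L` yields a system of imprimitivity for the intertwiners of `σ'` over any group normalising it.
-/

namespace Cfsg.Agent.H39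

open Module TensorProduct

variable {G : Type*} [Group G] {L K : Subgroup G} [L.Normal] [K.Normal]
variable {W W' : Type*} [AddCommGroup W] [Module ℂ W] [AddCommGroup W'] [Module ℂ W']

/-- Triples `(g, S, S')` with `S`, `S'` intertwining `σ`, `σ'` with their conjugates by `g`. -/
def pairSub (σ : Representation ℂ L W) (σ' : Representation ℂ K W') :
    Subgroup (G × (Module.End ℂ W)ˣ × (Module.End ℂ W')ˣ) where
  carrier := {δ | (δ.1, δ.2.1) ∈ interSub σ ∧ (δ.1, δ.2.2) ∈ interSub σ'}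
  one_mem' := ⟨(interSub σ).one_mem, (interSub σ').one_mem⟩
  mul_mem' := fun {a b} ha hb =>
    ⟨(interSub σ).mul_mem ha.1 hb.1, (interSub σ').mul_mem ha.2 hb.2⟩
  inv_mem' := fun {a} ha => ⟨(interSub σ).inv_mem ha.1, (interSub σ').inv_mem ha.2⟩

/-- The action of `pairSub` on `Hom_L(σ, σ')`. -/
noncomputable def pairRep (σ : Representation ℂ L W) (σ' : Representation ℂ K W') (hLK : L ≤ K) :
    Representation ℂ (pairSub σ σ')
      (Representation.IntertwiningMap σ (σ'.comp (Subgroup.inclusion hLK))) where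
  toFun δ :=
    { toFun := fun x =>
        ⟨(δ.1.2.2 : Module.End ℂ W') ∘ₗ x.toLinearMap ∘ₗ
            ((δ.1.2.1⁻¹ : (Module.End ℂ W)ˣ) : Module.End ℂ W),
          fun l => by
            refine LinearMap.ext fun w => ?_
            have h : ((δ.1.2.1⁻¹ : (Module.End ℂ W)ˣ) : Module.End ℂ W) (σ l w) =
                σ (conjN δ.1.1⁻¹ l) (((δ.1.2.1⁻¹ : (Module.End ℂ W)ˣ) : Module.End ℂ W) w) :=
              LinearMap.congr_fun (congrArg Units.val ((interSub σ).inv_mem δ.2.1 l)) w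
            simp only [LinearMap.comp_apply, h, intertwining_apply]
            have h2 : ∀ (n : K) (u : W'), (δ.1.2.2 : Module.End ℂ W') (σ' n u) =
                σ' (conjN δ.1.1 n) ((δ.1.2.2 : Module.End ℂ W') u) := fun n u =>
              LinearMap.congr_fun (congrArg Units.val (δ.2.2 n)) u
            show (δ.1.2.2 : Module.End ℂ W') (σ' (Subgroup.inclusion hLK (conjN δ.1.1⁻¹ l)) _) = _
            have h3 : conjN δ.1.1 (Subgroup.inclusion hLK (conjN δ.1.1⁻¹ l)) =
                Subgroup.inclusion hLK l := by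
              apply Subtype.ext
              show δ.1.1 * (δ.1.1⁻¹ * (l : G) * δ.1.1⁻¹⁻¹) * δ.1.1⁻¹ = (l : G)
              group
            rw [h2, h3]
            rfl⟩
      map_add' := fun f f' => by
        apply Representation.IntertwiningMap.ext
        ext w
        simp
      map_smul' := fun c f => by
        apply Representation.IntertwiningMap.ext
        ext w
        simp }
  map_one' := by
    refine LinearMap.ext fun f => Representation.IntertwiningMap.ext (LinearMap.ext fun w => ?_)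
    simp
  map_mul' q r := by
    refine LinearMap.ext fun f => Representation.IntertwiningMap.ext (LinearMap.ext fun w => ?_)
    simp [mul_assoc]

lemma pairRep_apply (σ : Representation ℂ L W) (σ' : Representation ℂ K W') (hLK : L ≤ K)
    (δ : pairSub σ σ') (x : Representation.IntertwiningMap σ (σ'.comp (Subgroup.inclusion hLK)))
    (w : W) :
    (pairRep σ σ' hLK δ x).toLinearMap w = (δ.1.2.2 : Module.End ℂ W')
      (x.toLinearMap (((δ.1.2.1⁻¹ : (Module.End ℂ W)ˣ) : Module.End ℂ W) w)) := rfl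

variable [FiniteDimensional ℂ W] [FiniteDimensional ℂ W']

/-- If `tr(S σ(l)) = 0` for all `l` with `σ` irreducible, then `S = 0`. -/
lemma eq_zero_of_trace_mul_eq_zero {L : Type*} [Group L] [Finite L] (σ : Representation ℂ L W)
    [σ.IsIrreducible] (S : Module.End ℂ W) (h : ∀ l, LinearMap.trace ℂ W (S * σ l) = 0) :
    S = 0 := by
  classical
  haveI := Fintype.ofFinite L
  haveI := H25.nontrivial_of_isIrreducible σ
  let b := Module.finBasis ℂ W
  have key : ∀ (v w : W) (ξ : W →ₗ[ℂ] ℂ), ∑ l : L, ξ (σ l⁻¹ w) • σ l v =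
      ((Nat.card L : ℂ) * ξ v / (finrank ℂ W : ℂ)) • w := by
    intro v w ξ
    let M : Module.End ℂ W := ξ.smulRight v
    let A : Module.End ℂ W := ∑ l : L, σ l * M * σ l⁻¹
    have hA : ∀ g, A ∘ₗ σ g = σ g ∘ₗ A := by
      intro g
      simp only [← Module.End.mul_eq_comp, A, Finset.sum_mul, Finset.mul_sum]
      refine Fintype.sum_equiv (Equiv.mulLeft g⁻¹) _ _ fun l => ?_
      simp only [Equiv.coe_mulLeft, mul_inv_rev, inv_inv, mul_assoc, map_mul]
      simp only [← mul_assoc, ← map_mul, mul_inv_cancel, one_mul]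
    have h1 := H25.eq_smul_id_of_comm σ A hA
    have htr : LinearMap.trace ℂ W A = (Nat.card L : ℂ) * ξ v := by
      simp only [A, map_sum]
      have : ∀ l : L, LinearMap.trace ℂ W (σ l * M * σ l⁻¹) = ξ v := by
        intro l
        rw [LinearMap.trace_mul_comm, ← mul_assoc, ← map_mul, inv_mul_cancel, map_one, one_mul]
        exact LinearMap.trace_smulRight ξ v
      rw [Finset.sum_congr rfl fun l _ => this l, Finset.sum_const, Finset.card_univ, nsmul_eq_mul,
        Nat.card_eq_fintype_card]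
    rw [htr] at h1
    have h2 := LinearMap.congr_fun h1 w
    simp only [A, M, LinearMap.sum_apply, Module.End.mul_apply, LinearMap.smulRight_apply,
      map_smul, LinearMap.smul_apply, LinearMap.id_apply] at h2
    exact h2
  have htrace : ∀ (l : L), LinearMap.trace ℂ W (S * σ l) = ∑ i, b.coord i (S (σ l (b i))) := by
    intro l
    rw [LinearMap.trace_eq_matrix_trace ℂ b, Matrix.trace]
    refine Finset.sum_congr rfl fun i _ => ?_
    simp [Matrix.diag, LinearMap.toMatrix_apply, Basis.coord_apply]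
  refine LinearMap.ext fun w => b.ext_elem fun j => ?_
  have h1 : ∑ l : L, b.coord j (σ l⁻¹ w) * LinearMap.trace ℂ W (S * σ l) = 0 :=
    Finset.sum_eq_zero fun l _ => by rw [h l, mul_zero]
  simp only [htrace, Finset.mul_sum] at h1
  rw [Finset.sum_comm] at h1
  have h2 : ∀ i, ∑ l : L, b.coord j (σ l⁻¹ w) * b.coord i (S (σ l (b i))) =
      (Nat.card L : ℂ) * b.coord j (b i) / (finrank ℂ W : ℂ) * b.coord i (S w) := by
    intro i
    have := congrArg (fun z => b.coord i (S z)) (key (b i) w (b.coord j))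
    simpa using this
  rw [Finset.sum_congr rfl fun i _ => h2 i, Finset.sum_eq_single j] at h1
  · have hd : (finrank ℂ W : ℂ) ≠ 0 := Nat.cast_ne_zero.2 finrank_pos.ne'
    have hL : (Nat.card L : ℂ) ≠ 0 := by exact_mod_cast Nat.card_pos.ne'
    simp [hd, hL, Basis.coord_apply] at h1
    simpa using h1
  · intro i _ hij
    simp [Basis.coord_apply, Finsupp.single_apply, hij]
  · intro h0; exact absurd (Finset.mem_univ j) h0

/-- Conjugation through the evaluation isomorphism turns operators on `Hom_L(W, W')` into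
operators on `W'`. -/
noncomputable def liftOp {L : Type*} [Group L] [Finite L] {σ : Representation ℂ L W}
    [σ.IsIrreducible] {τ : Representation ℂ L W'} (h : IsIsotypic σ τ)
    (p : Module.End ℂ (Representation.IntertwiningMap σ τ)) : Module.End ℂ W' :=
  (evalEquiv σ τ h).conj (TensorProduct.map p LinearMap.id)

lemma liftOp_apply {L : Type*} [Group L] [Finite L] {σ : Representation ℂ L W}
    [σ.IsIrreducible] {τ : Representation ℂ L W'} (h : IsIsotypic σ τ)
    (p : Module.End ℂ (Representation.IntertwiningMap σ τ))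
    (x : Representation.IntertwiningMap σ τ) (w : W) :
    liftOp h p (x.toLinearMap w) = (p x).toLinearMap w := by
  have h1 : x.toLinearMap w = evalEquiv σ τ h (x ⊗ₜ w) := rfl
  rw [h1, liftOp, LinearEquiv.conj_apply_apply, LinearEquiv.symm_apply_apply]
  rfl

lemma ext_of_isotypic {L : Type*} [Group L] [Finite L] {σ : Representation ℂ L W}
    {τ : Representation ℂ L W'} (h : IsIsotypic σ τ) {V : Type*} [AddCommGroup V] [Module ℂ V]
    {P Q : W' →ₗ[ℂ] V}
    (hPQ : ∀ (x : Representation.IntertwiningMap σ τ) (w : W),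
      P (x.toLinearMap w) = Q (x.toLinearMap w)) : P = Q := by
  refine LinearMap.ext fun v => ?_
  obtain ⟨t, rfl⟩ := evalTensor_surjective h v
  induction t using TensorProduct.induction_on with
  | zero => simp
  | tmul x w => exact hPQ x w
  | add a b ha hb => simp only [map_add, ha, hb]

variable [Finite G]

set_option maxHeartbeats 2000000 in
/-- The idempotent permuted by the intertwiners over `H`. -/
theorem exists_permuted_idempotent (σ : Representation ℂ L W) [σ.IsIrreducible]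
    (σ' : Representation ℂ K W') [σ'.IsIrreducible] (hLK : L ≤ K)
    (hiso : IsIsotypic σ (σ'.comp (Subgroup.inclusion hLK)))
    (hinv : ∀ (g : G) (l : L), σ.character (conjN g l) = σ.character l)
    (hvan : ∀ k : K, (k : G) ∉ L → σ'.character k = 0)
    (hinv' : ∀ (g : G) (k : K), σ'.character (conjN g k) = σ'.character k)
    {p r : ℕ} (hp : p.Prime) (hr : r.Prime) (hrp : r ≠ p) (hK : ∃ s, L.relIndex K = p ^ s)
    (H B : Subgroup G) (hLB : L ≤ B) (hBL : B ≠ L) (hnorm : ∀ h ∈ H, ∀ b ∈ B, h * b * h⁻¹ ∈ B)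
    (hexp : ∀ b ∈ B, b ^ r ∈ L) (habel : ∀ b ∈ B, ∀ b' ∈ B, b * b' * b⁻¹ * b'⁻¹ ∈ L)
    (hfaith : ∀ b ∈ B, (∀ k ∈ K, b * k * b⁻¹ * k⁻¹ ∈ L) → b ∈ L) :
    ∃ E : Module.End ℂ W', E * E = E ∧ E ≠ 0 ∧ E ≠ 1 ∧
      (∀ l : L, E * σ' (Subgroup.inclusion hLK l) = σ' (Subgroup.inclusion hLK l) * E) ∧
      ∀ h ∈ H, ∀ S' : (Module.End ℂ W')ˣ, (h, S') ∈ interSub σ' →
        (S' : Module.End ℂ W') * E * ((S'⁻¹ : (Module.End ℂ W')ˣ) : Module.End ℂ W') = E ∨
        E * ((S' : Module.End ℂ W') * E * ((S'⁻¹ : (Module.End ℂ W')ˣ) : Module.End ℂ W')) = 0 := by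
  classical
  haveI := Fintype.ofFinite G
  haveI := Fintype.ofFinite L
  haveI := Fintype.ofFinite K
  haveI := H25.nontrivial_of_isIrreducible σ
  haveI := H25.nontrivial_of_isIrreducible σ'
  set τ : Representation ℂ L W' := σ'.comp (Subgroup.inclusion hLK) with hτ
  set X := Representation.IntertwiningMap σ τ
  set f := finrank ℂ X with hf
  have hchar : τ.character = (f : ℂ) • σ.character := char_eq_of_isotypic hiso
  -- `f ^ 2 = |K : L|`
  have hcard : L.relIndex K = f ^ 2 := by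
    have h1 := H26.classInner_irr (⟨_, H26.isIrrCharacter_char σ'⟩ : Cfsg.IrrCharacter K)
      ⟨_, H26.isIrrCharacter_char σ'⟩
    have h2 := H26.classInner_irr (⟨_, H26.isIrrCharacter_char σ⟩ : Cfsg.IrrCharacter L)
      ⟨_, H26.isIrrCharacter_char σ⟩
    rw [if_pos rfl] at h1 h2
    simp only [Cfsg.classInner] at h1 h2
    rw [inv_mul_eq_one₀ (by exact_mod_cast Nat.card_pos.ne')] at h1 h2
    have h3 : ∑ k : K, σ'.character k * (starRingEnd ℂ) (σ'.character k) =
        ((f ^ 2 * Nat.card L : ℕ) : ℂ) := by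
      rw [← Finset.sum_filter_of_ne (p := fun k : K => (k : G) ∈ L) (fun k _ hk => by
        by_contra h; exact hk (by rw [hvan k h, zero_mul])),
        Nat.cast_mul, h2, Finset.mul_sum]
      refine Finset.sum_bij' (fun k hk => (⟨k, (Finset.mem_filter.1 hk).2⟩ : L))
        (fun l _ => Subgroup.inclusion hLK l) (fun _ _ => Finset.mem_univ _)
        (fun l _ => by simp) (fun _ _ => Subtype.ext rfl) (fun _ _ => Subtype.ext rfl)
        fun k hk => ?_
      have := congrFun hchar ⟨k, (Finset.mem_filter.1 hk).2⟩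
      simp only [Pi.smul_apply, smul_eq_mul] at this
      have hk' : σ'.character k = (f : ℂ) * σ.character ⟨k, (Finset.mem_filter.1 hk).2⟩ := this
      rw [hk', map_mul, Complex.conj_natCast]
      push_cast
      ring
    rw [← h1] at h3
    have h4 : Nat.card K = f ^ 2 * Nat.card L := by exact_mod_cast h3
    have h5 : L.relIndex K * Nat.card L = Nat.card K := by
      rw [Subgroup.relIndex, mul_comm, ← Nat.card_congr (Subgroup.subgroupOfEquivOfLe hLK).toEquiv]
      exact (L.subgroupOf K).card_mul_index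
    exact Nat.eq_of_mul_eq_mul_right Nat.card_pos (h5.trans h4)
  obtain ⟨s, hs⟩ := hK
  obtain ⟨i, -, hfi⟩ := (Nat.dvd_prime_pow hp).1 (hs ▸ hcard ▸ dvd_pow_self f two_ne_zero)
  have hcop : Nat.Coprime f r := by
    rw [hfi]; exact Nat.Coprime.pow_left _ ((Nat.coprime_primes hp hr).2 hrp.symm)
  haveI : Nontrivial X := Module.nontrivial_of_finrank_pos (R := ℂ) (by
    rw [← hf, hfi]; exact pow_pos hp.pos i)
  -- operators on `X`
  let T : pairSub σ σ' →* (Module.End ℂ X)ˣ := (pairRep σ σ' hLK).toHomUnits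
  have hT : ∀ δ, ((T δ : (Module.End ℂ X)ˣ) : Module.End ℂ X) = pairRep σ σ' hLK δ :=
    fun δ => rfl
  have hlift : ∀ g : G, ∃ δ : pairSub σ σ', δ.1.1 = g := by
    intro g
    obtain ⟨S, hS⟩ := exists_mem_interSub σ g (hinv g)
    obtain ⟨S', hS'⟩ := exists_mem_interSub σ' g (hinv' g)
    exact ⟨⟨(g, S, S'), hS, hS'⟩, rfl⟩
  have hTscal : ∀ δ : pairSub σ σ', δ.1.1 ∈ L → ∃ c : ℂˣ, T δ = scalarU c := by
    intro δ hδ
    set l : L := ⟨δ.1.1, hδ⟩
    obtain ⟨c, hc⟩ := exists_scalar_of_mem_interSub (sigmaU_mem_interSub σ l) δ.2.1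
    obtain ⟨c', hc'⟩ := exists_scalar_of_mem_interSub
      (sigmaU_mem_interSub σ' (Subgroup.inclusion hLK l)) δ.2.2
    refine ⟨c' * c⁻¹, Units.ext ?_⟩
    rw [hT, scalarU_coe]
    refine LinearMap.ext fun x => Representation.IntertwiningMap.ext (LinearMap.ext fun w => ?_)
    rw [pairRep_apply, hc, hc', mul_inv_rev, ← map_inv, ← map_inv, Units.val_mul, Units.val_mul,
      Module.End.mul_apply, Module.End.mul_apply, scalarU_coe, scalarU_coe]
    show (c' : ℂ) • σ' (Subgroup.inclusion hLK l)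
      (x.toLinearMap (σ l⁻¹ (((c⁻¹ : ℂˣ) : ℂ) • w))) = _
    rw [intertwining_apply]
    show (c' : ℂ) • σ' (Subgroup.inclusion hLK l) (σ' (Subgroup.inclusion hLK l⁻¹) _) = _
    rw [← Module.End.mul_apply, ← map_mul, map_inv, mul_inv_cancel, map_one, Module.End.one_apply,
      map_smul, smul_smul, Units.val_mul]
    rfl
  have hTsame : ∀ δ δ' : pairSub σ σ', δ.1.1 = δ'.1.1 → ∃ c : ℂˣ, T δ' = scalarU c * T δ := by
    intro δ δ' h
    obtain ⟨c, hc⟩ := hTscal (δ' * δ⁻¹) (by
      show δ'.1.1 * δ.1.1⁻¹ ∈ L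
      rw [h, mul_inv_cancel]; exact L.one_mem)
    exact ⟨c, by rw [← hc, map_mul, map_inv, inv_mul_cancel_right]⟩
  -- scalar operators come from `L`
  have hfaithK : ∀ δ : pairSub σ σ', δ.1.1 ∈ K → (∃ c : ℂˣ, T δ = scalarU c) → δ.1.1 ∈ L := by
    rintro δ hδ ⟨a, ha⟩
    by_contra hL
    set k : K := ⟨δ.1.1, hδ⟩
    obtain ⟨c', hc'⟩ := exists_scalar_of_mem_interSub (sigmaU_mem_interSub σ' k) δ.2.2
    have hrel : ∀ (x : X) (w : W), σ' k (x.toLinearMap w) =
        ((c'⁻¹ * a : ℂˣ) : ℂ) • x.toLinearMap ((δ.1.2.1 : Module.End ℂ W) w) := by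
      intro x w
      have h1 := congrArg (fun u : (Module.End ℂ X)ˣ =>
        ((u : Module.End ℂ X) x).toLinearMap ((δ.1.2.1 : Module.End ℂ W) w)) ha
      rw [scalarU_coe] at h1
      change (δ.1.2.2 : Module.End ℂ W') (x.toLinearMap
        (((δ.1.2.1⁻¹ : (Module.End ℂ W)ˣ) : Module.End ℂ W)
          ((δ.1.2.1 : Module.End ℂ W) w))) =
        (a : ℂ) • x.toLinearMap ((δ.1.2.1 : Module.End ℂ W) w) at h1
      rw [← Module.End.mul_apply, Units.inv_mul, Module.End.one_apply, hc', Units.val_mul,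
        Module.End.mul_apply, scalarU_coe] at h1
      have h1' : (c' : ℂ) • σ' k (x.toLinearMap w) =
          (a : ℂ) • x.toLinearMap ((δ.1.2.1 : Module.End ℂ W) w) := h1
      rw [Units.val_mul, mul_smul, ← h1', smul_smul, Units.inv_mul, one_smul]
    have hall : ∀ l : L, LinearMap.trace ℂ W ((δ.1.2.1 : Module.End ℂ W) * σ l) = 0 := by
      intro l
      have h1 : σ' (k * Subgroup.inclusion hLK l) = ((c'⁻¹ * a : ℂˣ) : ℂ) •
          (evalEquiv σ τ hiso).conj
            (TensorProduct.map LinearMap.id ((δ.1.2.1 : Module.End ℂ W) * σ l)) := by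
        refine ext_of_isotypic hiso fun x w => ?_
        have he : x.toLinearMap w = evalEquiv σ τ hiso (x ⊗ₜ w) := rfl
        rw [map_mul, Module.End.mul_apply]
        have h2 : σ' (Subgroup.inclusion hLK l) (x.toLinearMap w) = x.toLinearMap (σ l w) :=
          (intertwining_apply x l w).symm
        rw [h2, hrel, LinearMap.smul_apply, he, LinearEquiv.conj_apply_apply,
          LinearEquiv.symm_apply_apply]
        rfl
      have h3 := congrArg (LinearMap.trace ℂ W') h1
      rw [map_smul, LinearMap.trace_conj', LinearMap.trace_tensorProduct', LinearMap.trace_id] at h3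
      have h4 : σ'.character (k * Subgroup.inclusion hLK l) = 0 :=
        hvan _ fun hmem => hL ((L.mul_mem_cancel_right l.2).1 hmem)
      rw [show LinearMap.trace ℂ W' (σ' (k * Subgroup.inclusion hLK l)) = 0 from h4, smul_eq_mul,
        eq_comm, mul_eq_zero, mul_eq_zero] at h3
      rcases h3 with h3 | h3 | h3
      · exact absurd h3 (c'⁻¹ * a).ne_zero
      · exact absurd h3 (Nat.cast_ne_zero.2 finrank_pos.ne')
      · exact h3
    exact δ.1.2.1.ne_zero (eq_zero_of_trace_mul_eq_zero σ _ hall)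
  -- `T` over `B` commutes
  have hpowr : ∀ δ : pairSub σ σ', δ.1.1 ∈ B → ∃ a : ℂˣ, T δ ^ r = scalarU a := by
    intro δ hδ
    obtain ⟨c, hc⟩ := hTscal (δ ^ r) (hexp _ hδ)
    exact ⟨c, by rw [← map_pow, hc]⟩
  have hdet : ∀ (c : ℂˣ) (u : (Module.End ℂ X)ˣ),
      Units.map (LinearMap.det (M := X) (A := ℂ)) (scalarU c * u) =
        c ^ f * Units.map (LinearMap.det (M := X) (A := ℂ)) u := fun c u =>
    Units.ext (det_scalarU c u)
  have hcomm : ∀ δ δ' : pairSub σ σ', δ.1.1 ∈ B → δ'.1.1 ∈ B → Commute (T δ) (T δ') := by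
    intro δ δ' hδ hδ'
    obtain ⟨c, hc⟩ := hTscal (δ * δ' * δ⁻¹ * δ'⁻¹) (habel _ hδ _ hδ')
    rw [map_mul, map_mul, map_mul, map_inv, map_inv, mul_inv_eq_iff_eq_mul,
      mul_inv_eq_iff_eq_mul] at hc
    have hcf : c ^ f = 1 := by
      have h1 := congrArg (Units.map (LinearMap.det (M := X) (A := ℂ))) hc
      rw [mul_assoc (scalarU c), hdet, map_mul, map_mul,
        mul_comm (Units.map _ (T δ')) (Units.map _ (T δ)), eq_comm, mul_eq_right] at h1
      exact h1
    obtain ⟨a, ha⟩ := hpowr δ' hδ'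
    have hcr : c ^ r = 1 := by
      have h1 : T δ * T δ' * (T δ)⁻¹ = scalarU c * T δ' := by
        rw [hc, mul_inv_cancel_right]
      have h2 : (T δ * T δ' * (T δ)⁻¹) ^ r = (scalarU c * T δ') ^ r := by rw [h1]
      rw [conj_pow, (Commute.mul_pow (scalarU_comm c (T δ')) r), ha, ← scalarU_comm,
        mul_inv_cancel_right, ← map_pow, ← map_mul] at h2
      have h3 := scalarU_injective h2
      exact mul_eq_right.1 h3.symm
    have hc1 : c = 1 := by
      have hg : orderOf c ∣ Nat.gcd f r :=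
        Nat.dvd_gcd (orderOf_dvd_of_pow_eq_one hcf) (orderOf_dvd_of_pow_eq_one hcr)
      rw [hcop.gcd_eq_one, Nat.dvd_one, orderOf_eq_one_iff] at hg
      exact hg
    rw [hc1, map_one, one_mul] at hc
    exact hc
  -- the finite abelian group of normalised operators
  let A : Subgroup (Module.End ℂ X)ˣ :=
    { carrier := {u | u ^ r = 1 ∧ ∃ δ : pairSub σ σ', δ.1.1 ∈ B ∧ ∃ c : ℂˣ, u = scalarU c * T δ}
      one_mem' := ⟨one_pow r, 1, B.one_mem, 1, by simp⟩
      mul_mem' := by
        rintro u v ⟨hu, δ, hδ, c, rfl⟩ ⟨hv, δ', hδ', c', rfl⟩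
        have hcm : Commute (scalarU c * T δ) (scalarU c' * T δ') :=
          Commute.mul_right (show Commute _ (scalarU c') from (scalarU_comm c' _).symm)
            (Commute.mul_left (show Commute (scalarU c) (T δ') from scalarU_comm c _)
              (hcomm δ δ' hδ hδ'))
        refine ⟨by rw [hcm.mul_pow, hu, hv, one_mul], δ * δ', B.mul_mem hδ hδ', c * c', ?_⟩
        rw [map_mul T, map_mul scalarU, mul_assoc, ← mul_assoc (T δ), ← scalarU_comm c' (T δ),
          mul_assoc (scalarU c'), ← mul_assoc]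
      inv_mem' := by
        rintro u ⟨hu, δ, hδ, c, rfl⟩
        refine ⟨by rw [inv_pow, hu, inv_one], δ⁻¹, B.inv_mem hδ, c⁻¹, ?_⟩
        rw [mul_inv_rev, map_inv T, map_inv scalarU, ← map_inv scalarU, scalarU_comm] }
  haveI hAc : IsMulCommutative A := ⟨⟨by
    rintro ⟨u, -, δ, hδ, c, rfl⟩ ⟨v, -, δ', hδ', c', rfl⟩
    exact Subtype.ext (Commute.mul_right
      (show Commute (scalarU c * T δ) (scalarU c') from (scalarU_comm c' _).symm)
      (Commute.mul_left (show Commute (scalarU c) (T δ') from scalarU_comm c _)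
        (hcomm δ δ' hδ hδ')))⟩⟩
  choose δ0 hδ0 using hlift
  haveI : Finite A := by
    have hsub : (A : Set (Module.End ℂ X)ˣ) ⊆ ⋃ b : B,
        (fun c : ℂˣ => scalarU c * T (δ0 b)) ''
          {c : ℂˣ | ∃ a : ℂˣ, T (δ0 b) ^ r = scalarU a ∧ (c : ℂ) ^ r = ((a⁻¹ : ℂˣ) : ℂ)} := by
      rintro u ⟨hu, δ, hδ, c, rfl⟩
      obtain ⟨e, he⟩ := hTsame (δ0 δ.1.1) δ (hδ0 _)
      rw [he, ← mul_assoc, ← map_mul] at hu ⊢
      obtain ⟨a, ha⟩ := hpowr (δ0 δ.1.1) (by rw [hδ0]; exact hδ)
      refine Set.mem_iUnion.2 ⟨⟨_, hδ⟩, c * e, ⟨a, ha, ?_⟩, rfl⟩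
      rw [Commute.mul_pow (scalarU_comm _ _), ha, ← map_pow, ← map_mul, ← map_one scalarU] at hu
      rw [← eq_inv_of_mul_eq_one_left (scalarU_injective hu)]
      simp
    refine ((Set.finite_iUnion fun b : B => Set.Finite.image _ ?_).subset hsub).to_subtype
    obtain ⟨a₀, ha₀⟩ := hpowr (δ0 b) (by rw [hδ0]; exact b.2)
    refine (finite_pow_eq r hr.ne_zero ((a₀⁻¹ : ℂˣ) : ℂ)).subset ?_
    rintro c ⟨a, ha, hc⟩
    rw [ha₀] at ha
    rw [scalarU_injective ha]
    exact hc
  haveI : Fintype A := Fintype.ofFinite A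
  let e : (A →* ℂˣ) → Module.End ℂ X := fun μ =>
    (Nat.card A : ℂ)⁻¹ • ∑ a : A, ((μ a⁻¹ : ℂˣ) : ℂ) • ((a : (Module.End ℂ X)ˣ) : Module.End ℂ X)
  have hA0 : (Nat.card A : ℂ) ≠ 0 := by exact_mod_cast Nat.card_pos.ne'
  have hmulA : ∀ (μ : A →* ℂˣ) (a : A),
      ((a : (Module.End ℂ X)ˣ) : Module.End ℂ X) * e μ = (μ a : ℂ) • e μ := by
    intro μ a
    simp only [e, Finset.smul_sum, mul_smul_comm, Finset.mul_sum]
    refine Fintype.sum_equiv (Equiv.mulLeft a) _ _ fun b => ?_
    simp only [Equiv.coe_mulLeft, smul_smul, Subgroup.coe_mul, Units.val_mul]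
    congr 1
    simp only [mul_inv_rev, map_mul, map_inv, Units.val_mul, Units.val_inv_eq_inv_val]
    field_simp
  have horth : ∀ μ ν : A →* ℂˣ, e μ * e ν = if μ = ν then e ν else 0 := by
    intro μ ν
    conv_lhs =>
      arg 1
      simp only [e]
    rw [smul_mul_assoc, Finset.sum_mul]
    simp only [smul_mul_assoc, hmulA, smul_smul]
    rw [← Finset.sum_smul, smul_smul]
    have h1 : ∑ a : A, ((μ a⁻¹ : ℂˣ) : ℂ) * (ν a : ℂ) = ∑ a : A, (((μ⁻¹ * ν : A →* ℂˣ) a : ℂˣ) : ℂ) :=
      Finset.sum_congr rfl fun a _ => by simp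
    rw [h1]
    split_ifs with h
    · subst h
      simp [Nat.card_eq_fintype_card]
    · rw [H27.sum_apply_linear fun h' => h (inv_mul_eq_one.1 h'), mul_zero, zero_smul]
  have hsum : ∑ μ : A →* ℂˣ, e μ = 1 := by
    simp only [e, ← Finset.smul_sum]
    rw [Finset.sum_comm]
    simp only [← Finset.sum_smul, H27.sum_linear_apply]
    rw [Finset.sum_eq_single (1 : A)]
    · simp [hA0]
    · intro a _ ha
      rw [if_neg (inv_ne_one.2 ha), zero_smul]
    · intro h; exact absurd (Finset.mem_univ _) h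
  obtain ⟨μ, hμ⟩ : ∃ μ, e μ ≠ 0 := by
    by_contra h
    push Not at h
    rw [Finset.sum_eq_zero fun μ _ => h μ] at hsum
    exact zero_ne_one hsum
  have hμ1 : e μ ≠ 1 := by
    intro h1
    obtain ⟨b, hb, hbL⟩ : ∃ b ∈ B, b ∉ L := by
      by_contra h
      push Not at h
      exact hBL (le_antisymm h hLB)
    obtain ⟨a, ha⟩ := hpowr (δ0 b) (by rw [hδ0]; exact hb)
    obtain ⟨z, hz⟩ := IsAlgClosed.exists_pow_nat_eq ((a⁻¹ : ℂˣ) : ℂ) hr.pos
    have hz0 : z ≠ 0 := by
      rintro rfl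
      rw [zero_pow hr.ne_zero] at hz
      exact (a⁻¹).ne_zero hz.symm
    have hmem : scalarU (Units.mk0 z hz0) * T (δ0 b) ∈ A := by
      refine ⟨?_, δ0 b, by rw [hδ0]; exact hb, _, rfl⟩
      rw [Commute.mul_pow (scalarU_comm _ _), ha, ← map_pow, ← map_mul,
        show (Units.mk0 z hz0) ^ r = a⁻¹ from Units.ext (by simpa using hz), inv_mul_cancel, map_one]
    have h2 := hmulA μ ⟨_, hmem⟩
    rw [h1, mul_one] at h2
    have hscalT : ∃ c : ℂˣ, T (δ0 b) = scalarU c := by
      refine ⟨(Units.mk0 z hz0)⁻¹ * μ ⟨_, hmem⟩, ?_⟩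
      rw [map_mul, map_inv, eq_inv_mul_iff_mul_eq]
      exact Units.ext (by rw [scalarU_coe]; exact h2)
    obtain ⟨c, hc⟩ := hscalT
    apply hbL
    refine hfaith b hb fun k hk => ?_
    have hmemK : b * k * b⁻¹ * k⁻¹ ∈ K :=
      K.mul_mem (Subgroup.Normal.conj_mem inferInstance k hk b) (K.inv_mem hk)
    have h3 := hfaithK (δ0 b * δ0 k * (δ0 b)⁻¹ * (δ0 k)⁻¹)
      (by show (δ0 b).1.1 * (δ0 k).1.1 * (δ0 b).1.1⁻¹ * (δ0 k).1.1⁻¹ ∈ K
          rw [hδ0, hδ0]; exact hmemK)
      ⟨1, by rw [map_mul, map_mul, map_mul, map_inv, map_inv, hc, scalarU_comm,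
        mul_inv_cancel_right, mul_inv_cancel, map_one]⟩
    have h4 : (δ0 b).1.1 * (δ0 k).1.1 * (δ0 b).1.1⁻¹ * (δ0 k).1.1⁻¹ ∈ L := h3
    rwa [hδ0, hδ0] at h4
  -- transport to `W'`
  let ι := liftOp (σ := σ) (τ := τ) hiso
  have hιmul : ∀ P Q, ι (P * Q) = ι P * ι Q := fun P Q => ext_of_isotypic hiso fun x w => by
    simp only [ι, Module.End.mul_apply, liftOp_apply]
  have hι0 : ι 0 = 0 := ext_of_isotypic hiso fun x w => by
    simp only [ι, liftOp_apply, LinearMap.zero_apply]
    rfl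
  have hιinj : Function.Injective ι := fun P Q h => LinearMap.ext fun x =>
    Representation.IntertwiningMap.ext (LinearMap.ext fun w => by
      have := LinearMap.congr_fun h (x.toLinearMap w)
      simpa only [ι, liftOp_apply] using this)
  have hι1 : ι 1 = 1 := ext_of_isotypic hiso fun x w => by
    simp only [ι, liftOp_apply, Module.End.one_apply]
  refine ⟨ι (e μ), ?_, ?_, ?_, ?_, ?_⟩
  · rw [← hιmul, horth, if_pos rfl]
  · exact fun h => hμ (hιinj (h.trans hι0.symm))
  · exact fun h => hμ1 (hιinj (h.trans hι1.symm))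
  · intro l
    refine ext_of_isotypic hiso fun x w => ?_
    simp only [Module.End.mul_apply, ι]
    rw [show σ' (Subgroup.inclusion hLK l) (x.toLinearMap w) = x.toLinearMap (σ l w) from
      (intertwining_apply x l w).symm, liftOp_apply, liftOp_apply, intertwining_apply]
    rfl
  · intro h hh S' hS'
    obtain ⟨S, hS⟩ := exists_mem_interSub σ h (hinv h)
    let δ : pairSub σ σ' := ⟨(h, S, S'), hS, hS'⟩
    have hconj : ∀ P, (S' : Module.End ℂ W') * ι P * ((S'⁻¹ : (Module.End ℂ W')ˣ) : Module.End ℂ W') =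
        ι (((T δ : (Module.End ℂ X)ˣ) : Module.End ℂ X) * P *
          (((T δ)⁻¹ : (Module.End ℂ X)ˣ) : Module.End ℂ X)) := by
      intro P
      refine ext_of_isotypic hiso fun x w => ?_
      simp only [ι, Module.End.mul_apply, liftOp_apply]
      have h1 : ((S'⁻¹ : (Module.End ℂ W')ˣ) : Module.End ℂ W') (x.toLinearMap w) =
          (((((T δ)⁻¹ : (Module.End ℂ X)ˣ) : Module.End ℂ X)) x).toLinearMap
            (((S⁻¹ : (Module.End ℂ W)ˣ) : Module.End ℂ W) w) := by
        rw [← map_inv, hT, pairRep_apply]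
        show _ = ((S'⁻¹ : (Module.End ℂ W')ˣ) : Module.End ℂ W') (x.toLinearMap
          (((S⁻¹⁻¹ : (Module.End ℂ W)ˣ) : Module.End ℂ W) _))
        rw [inv_inv, ← Module.End.mul_apply (S : Module.End ℂ W), Units.mul_inv, Module.End.one_apply]
      rw [h1, liftOp_apply, hT, pairRep_apply]
    let θ : A →* A := MonoidHom.mk'
      (fun a => ⟨T δ * a * (T δ)⁻¹, by
        obtain ⟨ha, δ', hδ', c, hc⟩ := a.2
        refine ⟨by rw [conj_pow, ha, mul_one, mul_inv_cancel], δ * δ' * δ⁻¹,
          hnorm h hh _ hδ', c, ?_⟩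
        rw [hc, map_mul, map_mul, map_inv, ← mul_assoc, ← scalarU_comm]
        simp only [mul_assoc]⟩)
      (fun a b => Subtype.ext (by simp [mul_assoc]))
    have hθinj : Function.Injective θ := fun a b hab => Subtype.ext (by
      have := congrArg Subtype.val hab
      simpa [θ] using this)
    let θe : A ≃* A := MulEquiv.ofBijective θ (Finite.injective_iff_bijective.1 hθinj)
    set ν : A →* ℂˣ := μ.comp θe.symm.toMonoidHom
    have hν : ((T δ : (Module.End ℂ X)ˣ) : Module.End ℂ X) * e μ *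
        (((T δ)⁻¹ : (Module.End ℂ X)ˣ) : Module.End ℂ X) = e ν := by
      simp only [e, mul_smul_comm, smul_mul_assoc, Finset.mul_sum, Finset.sum_mul]
      congr 1
      refine Fintype.sum_equiv θe.toEquiv _ _ fun a => ?_
      have h1 : ν (θe.toEquiv a)⁻¹ = μ a⁻¹ := by
        show μ (θe.symm (θe a)⁻¹) = μ a⁻¹
        rw [map_inv, MulEquiv.symm_apply_apply]
      have h2 : ((θe.toEquiv a : A) : (Module.End ℂ X)ˣ) = T δ * a * (T δ)⁻¹ := rfl
      rw [h1, h2, Units.val_mul, Units.val_mul]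
    rw [hconj, hν]
    by_cases hνμ : ν = μ
    · left; rw [hνμ]
    · right
      rw [← hιmul, horth, if_neg (fun h' => hνμ h'.symm), hι0]

end Cfsg.Agent.H39
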