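import Cfsg.Agent.H39.BergerGroup
import Cfsg.Agent.H39.BergerOperators
import Cfsg.Agent.H25.IndRep
import Cfsg.Agent.H25.CharInd
import Cfsg.Agent.H27.Imprimitive

/-!
# Berger's theorem: quasi-primitive characters with solvable top are not induced

If `G/L` is solvable and an irreducible representation restricts homogeneously to every normal
subgroup above `L`, its character is not induced from a proper subgroup containing `L`.
-/

namespace Cfsg.Agent.H39

open Module TensorProduct

universe u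

/-- The restriction to `N` is homogeneous: any two nonzero invariant subspaces are linked by an
equivariant map. -/
def IsHomog {G : Type*} [Group G] {V : Type*} [AddCommGroup V] [Module ℂ V]
    (ρ : Representation ℂ G V) (N : Subgroup G) : Prop :=
  ∀ U U' : Submodule ℂ V, (∀ n ∈ N, ∀ v ∈ U, ρ n v ∈ U) → (∀ n ∈ N, ∀ v ∈ U', ρ n v ∈ U') →
    U ≠ ⊥ → U' ≠ ⊥ → ∃ θ : V →ₗ[ℂ] V, (∀ n ∈ N, ∀ v, θ (ρ n v) = ρ n (θ v)) ∧
      (∀ v ∈ U, θ v ∈ U') ∧ ∃ v ∈ U, θ v ≠ 0

variable {G : Type*} [Group G] [Finite G]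
variable {V : Type*} [AddCommGroup V] [Module ℂ V] [FiniteDimensional ℂ V]

/-- A homogeneous restriction is isotypic of some irreducible type. -/
lemma exists_isotypic_of_homog [Nontrivial V] (ρ : Representation ℂ G V) {N : Subgroup G}
    (h : IsHomog ρ N) :
    ∃ (d : ℕ) (σ : Representation ℂ N (Fin d → ℂ)), σ.IsIrreducible ∧
      IsIsotypic σ (resRep ρ N) := by
  obtain ⟨T, hT⟩ := H26.exists_irreducible_sub (resRep ρ N)
  obtain ⟨σ, ⟨e⟩⟩ := H26.exists_equiv_fin T.toRepresentation
  refine ⟨_, σ, H26.isIrreducible_of_equiv e, fun U hU hU0 => ?_⟩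
  have hT0 : T.toSubmodule ≠ ⊥ :=
    Submodule.nontrivial_iff_ne_bot.1 ((H26.isIrreducible_iff_forall _).1 hT).1
  obtain ⟨θ, hθ, hθU, v, hv, hv0⟩ := h T.toSubmodule U
    (fun n hn v hv => T.apply_mem_toSubmodule ⟨n, hn⟩ hv) (fun n hn v hv => hU ⟨n, hn⟩ v hv) hT0 hU0
  refine ⟨⟨θ ∘ₗ T.toSubmodule.subtype ∘ₗ e.symm.toLinearMap, fun n => LinearMap.ext fun w => ?_⟩,
    fun h0 => hv0 ?_, ?_⟩
  · have h1 : e.symm.toLinearMap (σ n w) = T.toRepresentation n (e.symm.toLinearMap w) :=
      LinearMap.congr_fun (e.symm.toIntertwiningMap.isIntertwining' n) w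
    simp only [LinearMap.comp_apply, h1]
    exact hθ n n.2 _
  · have h1 := LinearMap.congr_fun (congrArg Representation.IntertwiningMap.toLinearMap h0)
      (e.toLinearMap ⟨v, hv⟩)
    simp only [LinearMap.comp_apply] at h1
    have h2 : e.symm.toLinearMap (e.toLinearMap ⟨v, hv⟩) = (⟨v, hv⟩ : T.toSubmodule) :=
      e.toLinearEquiv.symm_apply_apply ⟨v, hv⟩
    rw [h2] at h1
    exact h1
  · rintro _ ⟨w, rfl⟩
    exact hθU _ (e.symm.toLinearMap w : T.toSubmodule).2

/-- A character restricting to a multiple of an irreducible one gives a homogeneous restriction. -/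
lemma isHomog_of_char (ρ : Representation ℂ G V) (N : Subgroup G) {ϑ : N → ℂ}
    (hϑ : Cfsg.IsIrrCharacter N ϑ) (e : ℂ) (h : (fun n : N => ρ.character n) = e • ϑ) :
    IsHomog ρ N := by
  obtain ⟨d, σ, hσ, rfl⟩ := hϑ
  have hiso : IsIsotypic σ (resRep ρ N) := isIsotypic_of_char_eq_smul e h
  intro U U' hU hU' hU0 hU'0
  obtain ⟨x, hx, hxU⟩ := hiso U (fun n v hv => hU n n.2 v hv) hU0
  obtain ⟨y, hy, hyU⟩ := hiso U' (fun n v hv => hU' n n.2 v hv) hU'0
  obtain ⟨π, hπ, hπR, hπfix⟩ := exists_equivariant_projection (resRep ρ N)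
    (LinearMap.range x.toLinearMap)
    (by rintro n _ ⟨w, rfl⟩; exact ⟨σ n w, intertwining_apply x n w⟩)
  let ex := LinearEquiv.ofInjective x.toLinearMap (injective_of_ne_zero hx)
  refine ⟨y.toLinearMap ∘ₗ ex.symm.toLinearMap ∘ₗ π.codRestrict _ hπR, fun n hn v => ?_,
    fun v _ => hyU ⟨_, rfl⟩, ?_⟩
  · have h1 : ex.symm.toLinearMap (π.codRestrict _ hπR (ρ n v)) =
        σ ⟨n, hn⟩ (ex.symm.toLinearMap (π.codRestrict _ hπR v)) := by
      apply ex.injective
      apply Subtype.ext
      show (ex (ex.symm (π.codRestrict _ hπR (ρ n v)))).1 =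
        x.toLinearMap (σ ⟨n, hn⟩ (ex.symm (π.codRestrict _ hπR v)))
      rw [LinearEquiv.apply_symm_apply, intertwining_apply]
      have h2 : x.toLinearMap (ex.symm (π.codRestrict _ hπR v)) = π v :=
        congrArg Subtype.val (ex.apply_symm_apply (π.codRestrict _ hπR v))
      rw [h2]
      exact hπ ⟨n, hn⟩ v
    simp only [LinearMap.comp_apply, h1]
    exact intertwining_apply y ⟨n, hn⟩ _
  · obtain ⟨w, hw⟩ := exists_apply_ne_zero hy
    refine ⟨x.toLinearMap w, hxU (LinearMap.mem_range_self _ w), ?_⟩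
    have h1 : ex.symm.toLinearMap (π.codRestrict _ hπR (x.toLinearMap w)) = w := by
      apply ex.injective
      apply Subtype.ext
      show (ex (ex.symm (π.codRestrict _ hπR (x.toLinearMap w)))).1 = x.toLinearMap w
      rw [LinearEquiv.apply_symm_apply]
      exact hπfix _ (LinearMap.mem_range_self _ w)
    simp only [LinearMap.comp_apply, h1]
    exact hw

section Image

variable {L : Type*} [Group L] [Finite L] {W : Type*} [AddCommGroup W] [Module ℂ W]
  [FiniteDimensional ℂ W]

/-- The subspace spanned by the images of a space of maps. -/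
noncomputable def evalImage (σ : Representation ℂ L W) (τ : Representation ℂ L V)
    (U : Submodule ℂ (Representation.IntertwiningMap σ τ)) : Submodule ℂ V :=
  LinearMap.range (evalTensor σ τ ∘ₗ TensorProduct.map U.subtype LinearMap.id)

omit [Finite L] [FiniteDimensional ℂ W] [FiniteDimensional ℂ V] in
lemma apply_mem_evalImage {σ : Representation ℂ L W} {τ : Representation ℂ L V}
    {U : Submodule ℂ (Representation.IntertwiningMap σ τ)}
    {f : Representation.IntertwiningMap σ τ} (hf : f ∈ U) (w : W) :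
    f.toLinearMap w ∈ evalImage σ τ U :=
  ⟨(⟨f, hf⟩ : U) ⊗ₜ w, rfl⟩

/-- A map with image in the span of the images of `U` belongs to `U`. -/
lemma mem_of_range_le_evalImage (σ : Representation ℂ L W) [σ.IsIrreducible]
    {τ : Representation ℂ L V} {U : Submodule ℂ (Representation.IntertwiningMap σ τ)}
    {f : Representation.IntertwiningMap σ τ}
    (h : ∀ w, f.toLinearMap w ∈ evalImage σ τ U) : f ∈ U := by
  haveI := H25.nontrivial_of_isIrreducible σ
  obtain ⟨w, hw⟩ := exists_ne (0 : W)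
  obtain ⟨ξ, hξ⟩ := Module.Projective.exists_dual_ne_zero ℂ hw
  obtain ⟨t, ht⟩ := h w
  have h1 : TensorProduct.map U.subtype LinearMap.id t = f ⊗ₜ w :=
    evalTensor_injective σ τ ht
  have h2 := congrArg (fun z => (TensorProduct.rid ℂ _) (TensorProduct.map U.mkQ ξ z)) h1
  simp only [TensorProduct.map_map, TensorProduct.map_tmul, TensorProduct.rid_tmul] at h2
  have h3 : (U.mkQ ∘ₗ U.subtype) = 0 :=
    LinearMap.ext fun u => (Submodule.Quotient.mk_eq_zero U).2 u.2
  rw [h3, TensorProduct.map_zero_left, LinearMap.zero_apply, map_zero, eq_comm,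
    smul_eq_zero] at h2
  exact (Submodule.Quotient.mk_eq_zero U).1 (h2.resolve_left hξ)

end Image

/-- The representation of the intertwiner group on `Hom_K(σ', ρ)` is irreducible. -/
lemma transferRep_irreducible {K : Subgroup G} [K.Normal] {W : Type*} [AddCommGroup W]
    [Module ℂ W] [FiniteDimensional ℂ W] (σ' : Representation ℂ K W) [σ'.IsIrreducible]
    (ρ : Representation ℂ G V) [ρ.IsIrreducible] {Γ : Type*} [Group Γ] (i : Γ →* interSub σ')
    (hi : ∀ g : G, ∃ q, (i q).1.1 = g)
    (hne : Nontrivial (Representation.IntertwiningMap σ' (resRep ρ K))) :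
    Representation.IsIrreducible ((transferRep σ' ρ).comp i) := by
  refine (H26.isIrreducible_iff_forall _).2 ⟨hne, fun U hU => ?_⟩
  by_cases hU0 : U = ⊥
  · exact Or.inl hU0
  refine Or.inr (eq_top_iff.2 fun f _ => mem_of_range_le_evalImage σ' fun w => ?_)
  have hinv : ∀ g : G, ∀ v ∈ evalImage σ' (resRep ρ K) U, ρ g v ∈ evalImage σ' (resRep ρ K) U := by
    intro g v hv
    obtain ⟨t, rfl⟩ := hv
    obtain ⟨q, rfl⟩ := hi g
    induction t using TensorProduct.induction_on with
    | zero => simp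
    | tmul f w =>
      have h1 : ρ (i q).1.1 (f.1.toLinearMap w) =
          ((transferRep σ' ρ).comp i q f.1).toLinearMap
            (((i q).1.2 : Module.End ℂ W) w) := by
        show _ = (transferRep σ' ρ (i q) f.1).toLinearMap _
        rw [transferRep_apply, ← Module.End.mul_apply, Units.inv_mul, Module.End.one_apply]
      show ρ (i q).1.1 (f.1.toLinearMap w) ∈ _
      rw [h1]
      exact apply_mem_evalImage (hU q _ f.2) _
    | add a b ha hb =>
      simp only [map_add] at ha hb ⊢
      exact Submodule.add_mem _ ha hb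
  rcases ((H26.isIrreducible_iff_forall ρ).1 inferInstance).2 _ hinv with h | h
  · exfalso
    obtain ⟨f', hf', hf0⟩ := Submodule.exists_mem_ne_zero_of_ne_bot hU0
    obtain ⟨w', hw'⟩ := exists_apply_ne_zero hf0
    exact hw' ((Submodule.mem_bot ℂ).1 (h ▸ apply_mem_evalImage hf' w'))
  · rw [h]; exact Submodule.mem_top

/-- One step of the descent: from an imprimitive quasi-primitive representation to a smaller one. -/
lemma exists_smaller {G : Type u} [Group G] [Fintype G] {V : Type} [AddCommGroup V] [Module ℂ V]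
    [FiniteDimensional ℂ V] (ρ : Representation ℂ G V) [ρ.IsIrreducible] (H : Subgroup G)
    (hH : IsCoatom H) (hs : Group.IsSolvable (G ⧸ H.normalCore))
    (hqp : ∀ N : Subgroup G, N.Normal → H.normalCore ≤ N → IsHomog ρ N)
    (ψ : H → ℂ) (hψ : Cfsg.IsCharacter H ψ) (hind : ρ.character = Cfsg.indFun H ψ) :
    ∃ (Γ : Type u) (_ : Group Γ) (_ : Fintype Γ) (U : Type) (_ : AddCommGroup U) (_ : Module ℂ U)
      (_ : FiniteDimensional ℂ U) (A : Representation ℂ Γ U) (M : Subgroup Γ) (_ : M.Normal)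
      (T : Subgroup Γ) (ψ' : T → ℂ),
      A.IsIrreducible ∧ finrank ℂ U < finrank ℂ V ∧ Group.IsSolvable (Γ ⧸ M) ∧
      (∀ N : Subgroup Γ, N.Normal → M ≤ N → IsHomog A N) ∧ T ≠ ⊤ ∧ M ≤ T ∧
      Cfsg.IsCharacter T ψ' ∧ A.character = Cfsg.indFun T ψ' := by
  classical
  haveI := H25.nontrivial_of_isIrreducible ρ
  obtain ⟨K, p, hp, hKn, hLK, hHK, hinf, hKp, hdata⟩ := exists_chief_data H hH hs
  haveI := hKn
  have hLH : H.normalCore ≤ H := Subgroup.normalCore_le H
  set L := H.normalCore
  obtain ⟨d, σ, hσ, hσiso⟩ := exists_isotypic_of_homog ρ (hqp L inferInstance le_rfl)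
  obtain ⟨d', σ', hσ', hσ'iso⟩ := exists_isotypic_of_homog ρ (hqp K hKn hLK)
  haveI := H25.nontrivial_of_isIrreducible σ
  haveI := H25.nontrivial_of_isIrreducible σ'
  haveI : Fintype K := Fintype.ofFinite K
  haveI : Fintype L := Fintype.ofFinite L
  set U := Representation.IntertwiningMap σ' (resRep ρ K) with hU
  have hn0 : (finrank ℂ V : ℂ) ≠ 0 := Nat.cast_ne_zero.2 finrank_pos.ne'
  have hdeg : finrank ℂ U * finrank ℂ (Fin d' → ℂ) = finrank ℂ V := by
    rw [← (evalEquiv σ' (resRep ρ K) hσ'iso).finrank_eq, Module.finrank_tensorProduct]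
  have hUpos : 0 < finrank ℂ U := Nat.pos_of_ne_zero fun h => by
    rw [h, zero_mul] at hdeg
    exact hn0 (by rw [← hdeg, Nat.cast_zero])
  haveI hUnt : Nontrivial U := Module.nontrivial_of_finrank_pos (R := ℂ) hUpos
  have hchK : (resRep ρ K).character = (finrank ℂ U : ℂ) • σ'.character :=
    char_eq_of_isotypic hσ'iso
  have hchL := char_eq_of_isotypic hσiso
  have hinvL : ∀ (g : G) (l : L), σ.character (conjN g l) = σ.character l := by
    intro g l
    have h1 := congrFun hchL (conjN g l)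
    have h2 := congrFun hchL l
    have he : (finrank ℂ (Representation.IntertwiningMap σ (resRep ρ L)) : ℂ) ≠ 0 := by
      intro h0
      have h3 := congrFun hchL 1
      rw [h0, zero_smul, Representation.char_one, Pi.zero_apply] at h3
      exact hn0 h3
    refine mul_left_cancel₀ he ?_
    simp only [Pi.smul_apply, smul_eq_mul] at h1 h2
    rw [← h1, ← h2]
    exact ρ.char_conj l g
  have hinvK : ∀ (g : G) (k : K), σ'.character (conjN g k) = σ'.character k := by
    intro g k
    have h1 := congrFun hchK (conjN g k)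
    have h2 := congrFun hchK k
    simp only [Pi.smul_apply, smul_eq_mul] at h1 h2
    refine mul_left_cancel₀ (Nat.cast_ne_zero.2 hUpos.ne') ?_
    rw [← h1, ← h2]
    exact ρ.char_conj k g
  have hvan : ∀ k : K, (k : G) ∉ L → σ'.character k = 0 := by
    intro k hk
    have h1 := congrFun hchK k
    simp only [Pi.smul_apply, smul_eq_mul] at h1
    have h0 : (resRep ρ K).character k = 0 := by
      show ρ.character (k : G) = 0
      rw [hind, H25.indFun_eq_zero H ψ]
      intro x hx
      apply hk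
      have h3 : x⁻¹ * (k : G) * x ∈ L := by
        rw [← hinf]
        exact ⟨hx, by simpa using hKn.conj_mem (k : G) k.2 x⁻¹⟩
      have h4 := (inferInstance : L.Normal).conj_mem _ h3 x
      simpa [mul_assoc] using h4
    rw [h0, eq_comm, mul_eq_zero] at h1
    exact h1.resolve_left (Nat.cast_ne_zero.2 hUpos.ne')
  -- an embedding of `σ'` into `ρ`, and isotypy on `L`
  obtain ⟨x₀, hx₀⟩ := exists_ne (0 : U)
  set τ : Representation ℂ L (Fin d' → ℂ) := σ'.comp (Subgroup.inclusion hLK) with hτ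
  have hτiso : IsIsotypic σ τ := by
    refine hσiso.of_injective ⟨x₀.toLinearMap, fun l => ?_⟩ (injective_of_ne_zero (x := x₀) hx₀)
    exact x₀.isIntertwining' (Subgroup.inclusion hLK l)
  have hτchar := char_eq_of_isotypic hτiso
  set f := finrank ℂ (Representation.IntertwiningMap σ τ) with hf
  have hcard : L.relIndex K = f ^ 2 := by
    have h1 := H26.classInner_irr (⟨_, H26.isIrrCharacter_char σ'⟩ : Cfsg.IrrCharacter K)
      ⟨_, H26.isIrrCharacter_char σ'⟩
    have h2 := H26.classInner_irr (⟨_, H26.isIrrCharacter_char σ⟩ : Cfsg.IrrCharacter L)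
      ⟨_, H26.isIrrCharacter_char σ⟩
    rw [if_pos rfl] at h1 h2
    simp only [Cfsg.classInner] at h1 h2
    rw [inv_mul_eq_one₀ (by exact_mod_cast Nat.card_pos.ne')] at h1 h2
    have h3 : ∑ k : K, σ'.character k * (starRingEnd ℂ) (σ'.character k) =
        ((f ^ 2 * Nat.card L : ℕ) : ℂ) := by
      rw [← Finset.sum_filter_of_ne (p := fun k : K => (k : G) ∈ L) (fun k _ hk => by
        by_contra h; exact hk (by rw [hvan k h, zero_mul])),
        Nat.cast_mul, h2, Finset.mul_sum]
      refine Finset.sum_bij' (fun k hk => (⟨k, (Finset.mem_filter.1 hk).2⟩ : L))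
        (fun l _ => Subgroup.inclusion hLK l) (fun _ _ => Finset.mem_univ _)
        (fun l _ => by simp) (fun _ _ => Subtype.ext rfl) (fun _ _ => Subtype.ext rfl)
        fun k hk => ?_
      have := congrFun hτchar ⟨k, (Finset.mem_filter.1 hk).2⟩
      simp only [Pi.smul_apply, smul_eq_mul] at this
      have hk' : σ'.character k = (f : ℂ) * σ.character ⟨k, (Finset.mem_filter.1 hk).2⟩ := this
      rw [hk', map_mul, Complex.conj_natCast]
      push_cast
      ring
    rw [← h1] at h3
    have h4 : Nat.card K = f ^ 2 * Nat.card L := by exact_mod_cast h3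
    have h5 : L.relIndex K * Nat.card L = Nat.card K := by
      rw [Subgroup.relIndex, mul_comm, ← Nat.card_congr (Subgroup.subgroupOfEquivOfLe hLK).toEquiv]
      exact (L.subgroupOf K).card_mul_index
    exact Nat.eq_of_mul_eq_mul_right Nat.card_pos (h5.trans h4)
  -- the top is not cyclic of prime order, so we have `B`
  rcases hdata with ⟨-, hq⟩ | ⟨B, r, hr, hrp, hLB, hBH, hBL, hBn, hBexp, hBab, hBf⟩
  · exfalso
    rw [hcard] at hq
    exact Nat.Prime.not_prime_pow (le_refl 2) (hq.symm ▸ hp : Nat.Prime (f ^ 2))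
  obtain ⟨E, hEE, hE0, hE1, hEL, hEH⟩ := exists_permuted_idempotent σ σ' hLK hτiso hinvL hvan
    hinvK hp hr hrp hKp H B hLB hBL hBn hBexp hBab hBf
  have hd'2 : 2 ≤ finrank ℂ (Fin d' → ℂ) := by
    by_contra hlt
    have h1 : finrank ℂ (Fin d' → ℂ) = 1 := by
      have : 0 < finrank ℂ (Fin d' → ℂ) := finrank_pos
      omega
    obtain ⟨v, hv, hspan⟩ := finrank_eq_one_iff'.1 h1
    obtain ⟨c, hc⟩ := hspan (E v)
    have hEc : E = c • LinearMap.id := LinearMap.ext fun w => by
      obtain ⟨a, rfl⟩ := hspan w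
      rw [map_smul, ← hc, LinearMap.smul_apply, LinearMap.id_apply, smul_comm]
    have h2 : c * c = c := by
      have h3 := LinearMap.congr_fun hEE v
      rw [Module.End.mul_apply, ← hc, map_smul, ← hc, smul_smul] at h3
      exact smul_left_injective ℂ hv h3
    rcases mul_eq_zero.1 (show c * (c - 1) = 0 by linear_combination h2) with h | h
    · exact hE0 (by rw [hEc, h, zero_smul])
    · exact hE1 (by rw [hEc, sub_eq_zero.1 h, one_smul]; rfl)
  -- the block
  obtain ⟨m, ρψ, rfl⟩ := hψ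
  haveI : Fintype H := Fintype.ofFinite H
  have hFex : ∃ F : Representation.IntertwiningMap ρψ (resRep ρ H), F ≠ 0 := by
    have h1 := H26.classInner_char_eq_finrank ρψ (resRep ρ H)
    have h2 : Cfsg.classInner (resRep ρ H).character ρψ.character = 1 := by
      rw [H26.classInner_comm,
        show (resRep ρ H).character = fun h : H => ρ.character h from rfl,
        ← H25.classInner_indFun_left H ρψ.character ρ.character
          (H26.isClassFunction_of_isCharacter (H26.isCharacter_char ρ)), ← hind]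
      have := H26.classInner_irr (⟨_, H26.isIrrCharacter_char ρ⟩ : Cfsg.IrrCharacter G)
        ⟨_, H26.isIrrCharacter_char ρ⟩
      rw [if_pos rfl] at this
      rw [this, map_one]
    rw [h2] at h1
    have h3 : finrank ℂ (Representation.IntertwiningMap ρψ (resRep ρ H)) = 1 := by
      exact_mod_cast h1.symm
    haveI : Nontrivial (Representation.IntertwiningMap ρψ (resRep ρ H)) :=
      Module.nontrivial_of_finrank_eq_succ h3
    exact exists_ne 0
  obtain ⟨F, hF⟩ := hFex
  set V0 := LinearMap.range F.toLinearMap with hV0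
  have hV0inv : ∀ h ∈ H, ∀ v ∈ V0, ρ h v ∈ V0 := by
    rintro h hh _ ⟨w, rfl⟩
    exact ⟨ρψ ⟨h, hh⟩ w, intertwining_apply F ⟨h, hh⟩ w⟩
  have hV0ne : V0 ≠ ⊥ := fun h0 => hF (Representation.IntertwiningMap.ext
    (LinearMap.range_eq_bot.1 h0))
  haveI : Nontrivial V0 := Submodule.nontrivial_iff_ne_bot.2 hV0ne
  haveI : Fintype (G ⧸ H) := Fintype.ofFinite _
  have hrep : ∀ x : G ⧸ H, ∃ k : K, ((k : G) : G ⧸ H) = x := by
    intro x
    induction x using Quotient.inductionOn' with
    | h g =>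
      obtain ⟨h, hh, k, hk, rfl⟩ := Subgroup.mem_sup_of_normal_right.1
        (hHK ▸ Subgroup.mem_top g : g ∈ H ⊔ K)
      refine ⟨⟨h * k * h⁻¹, hKn.conj_mem k hk h⟩, QuotientGroup.eq.2 ?_⟩
      have : (h * k * h⁻¹)⁻¹ * (h * k) = h := by group
      rw [this]
      exact hh
  choose kx hkx using hrep
  let Φ : ((G ⧸ H) → V0) →ₗ[ℂ] V :=
    ∑ x : G ⧸ H, (ρ (kx x : G) ∘ₗ V0.subtype) ∘ₗ LinearMap.proj x
  have hΦ : ∀ v, Φ v = ∑ x, ρ (kx x : G) (v x : V) := fun v => by simp [Φ, LinearMap.sum_apply]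
  have hΦsurj : LinearMap.range Φ = ⊤ := by
    refine (((H26.isIrreducible_iff_forall ρ).1 inferInstance).2 _ ?_).resolve_left ?_
    · rintro g _ ⟨v, rfl⟩
      rw [hΦ, map_sum]
      refine Submodule.sum_mem _ fun x _ => ?_
      set y : G ⧸ H := ((g * (kx x : G) : G) : G ⧸ H)
      have hh : (kx y : G)⁻¹ * (g * (kx x : G)) ∈ H := QuotientGroup.eq.1 (hkx y)
      refine ⟨Pi.single y ⟨_, hV0inv _ hh _ (v x).2⟩, ?_⟩
      rw [hΦ, Finset.sum_eq_single y]
      · rw [Pi.single_eq_same]
        show ρ (kx y : G) (ρ _ (v x : V)) = _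
        rw [← Module.End.mul_apply, ← map_mul, mul_inv_cancel_left, map_mul, Module.End.mul_apply]
      · intro z _ hz; simp [Pi.single_eq_of_ne hz]
      · intro h0; exact absurd (Finset.mem_univ _) h0
    · intro h0
      obtain ⟨v, hv, hv0⟩ := Submodule.exists_mem_ne_zero_of_ne_bot hV0ne
      have h1 : ρ (kx ((1 : G) : G ⧸ H) : G) v ∈ LinearMap.range Φ := by
        refine ⟨Pi.single ((1 : G) : G ⧸ H) ⟨v, hv⟩, ?_⟩
        rw [hΦ, Finset.sum_eq_single ((1 : G) : G ⧸ H)]
        · rw [Pi.single_eq_same]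
        · intro z _ hz; simp [Pi.single_eq_of_ne hz]
        · intro h0; exact absurd (Finset.mem_univ _) h0
      rw [h0, Submodule.mem_bot] at h1
      apply hv0
      have h2 := congrArg (ρ ((kx ((1 : G) : G ⧸ H) : G))⁻¹) h1
      rwa [← Module.End.mul_apply, ← map_mul, inv_mul_cancel, map_one, Module.End.one_apply,
        map_zero] at h2
  have hΦinj : Function.Injective Φ := by
    have hdim : finrank ℂ ((G ⧸ H) → V0) = finrank ℂ V := by
      refine le_antisymm ?_ ?_
      · rw [Module.finrank_pi_fintype, Finset.sum_const, Finset.card_univ, smul_eq_mul,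
          ← Nat.card_eq_fintype_card, ← Subgroup.index_eq_card]
        have h1 := congrFun hind 1
        rw [ρ.char_one, H25.indFun_one, ρψ.char_one] at h1
        have h2 : finrank ℂ V = H.index * finrank ℂ (Fin m → ℂ) := by exact_mod_cast h1
        rw [h2]
        exact Nat.mul_le_mul_left _ (LinearMap.finrank_range_le F.toLinearMap)
      · have h1 := LinearMap.finrank_range_le Φ
        rwa [hΦsurj, finrank_top] at h1
    exact (LinearMap.injective_iff_surjective_of_finrank_eq_finrank hdim).2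
      (LinearMap.range_eq_top.1 hΦsurj)
  -- the maps `Ψ`
  let τ0 : Representation ℂ L V0 :=
    Subrepresentation.toRepresentation
      (⟨V0, fun l v hv => hV0inv l (hLH l.2) v hv⟩ : Subrepresentation (resRep ρ L))
  set H0 := Representation.IntertwiningMap τ τ0
  have hterm : ∀ (G₀ : H0) (k k' : K), (k : G)⁻¹ * k' ∈ H → ∀ w,
      ρ (k : G) (G₀.toLinearMap (σ' k⁻¹ w) : V) = ρ (k' : G) (G₀.toLinearMap (σ' k'⁻¹ w) : V) := by
    intro G₀ k k' hk w
    have hl : (k : G)⁻¹ * k' ∈ L := hinf ▸ ⟨hk, K.mul_mem (K.inv_mem k.2) k'.2⟩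
    set l : L := ⟨_, hl⟩
    have hk' : k' = k * Subgroup.inclusion hLK l := by
      apply Subtype.ext; simp [l]
    rw [hk', mul_inv_rev, map_mul σ']
    show _ = ρ ((k : G) * (l : G)) _
    rw [map_mul, Module.End.mul_apply, Module.End.mul_apply]
    congr 1
    have h1 : σ' (Subgroup.inclusion hLK l)⁻¹ (σ' k⁻¹ w) = τ l⁻¹ (σ' k⁻¹ w) := by
      rw [hτ, MonoidHom.comp_apply, map_inv (Subgroup.inclusion hLK)]
    rw [h1, intertwining_apply]
    show _ = ρ (l : G) (ρ ((l⁻¹ : L) : G) _)
    rw [← Module.End.mul_apply, ← map_mul, Subgroup.coe_inv, mul_inv_cancel, map_one,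
      Module.End.one_apply]
    rfl
  let Ψ0 : H0 → ((Fin d' → ℂ) →ₗ[ℂ] V) := fun G₀ =>
    ∑ x : G ⧸ H, ρ (kx x : G) ∘ₗ V0.subtype ∘ₗ G₀.toLinearMap ∘ₗ σ' (kx x)⁻¹
  have hΨ0 : ∀ G₀ w, Ψ0 G₀ w = ∑ x, ρ (kx x : G) (G₀.toLinearMap (σ' (kx x)⁻¹ w) : V) :=
    fun G₀ w => by simp [Ψ0, LinearMap.sum_apply]
  let Ψ : H0 →ₗ[ℂ] U :=
    { toFun := fun G₀ => ⟨Ψ0 G₀, fun y => by
        refine LinearMap.ext fun w => ?_
        simp only [LinearMap.comp_apply, hΨ0, map_sum]
        refine Fintype.sum_equiv (MulAction.toPerm ((y : G)⁻¹)) _ _ fun x => ?_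
        set z : G ⧸ H := (y : G)⁻¹ • x
        show _ = ρ (y : G) (ρ (kx z : G) (G₀.toLinearMap (σ' (kx z)⁻¹ w) : V))
        have hrel : (kx x : G)⁻¹ * ((y * kx z : K) : G) ∈ H := by
          rw [← QuotientGroup.eq, hkx x]
          show x = (((y : G) * (kx z : G) : G) : G ⧸ H)
          have h1 : (((y : G) * (kx z : G) : G) : G ⧸ H) = (y : G) • ((kx z : G) : G ⧸ H) := rfl
          rw [h1, hkx z, smul_inv_smul]
        rw [hterm G₀ (kx x) (y * kx z) hrel (σ' y w), ← Module.End.mul_apply (σ' _), ← map_mul,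
          mul_inv_rev, inv_mul_cancel_right]
        show ρ ((y : G) * (kx z : G)) _ = _
        rw [map_mul, Module.End.mul_apply]⟩
      map_add' := fun a b => Representation.IntertwiningMap.ext (LinearMap.ext fun w => by
        show Ψ0 (a + b) w = Ψ0 a w + Ψ0 b w
        rw [hΨ0, hΨ0, hΨ0, ← Finset.sum_add_distrib]
        exact Finset.sum_congr rfl fun x _ => map_add _ _ _)
      map_smul' := fun c a => Representation.IntertwiningMap.ext (LinearMap.ext fun w => by
        show Ψ0 (c • a) w = c • Ψ0 a w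
        rw [hΨ0, hΨ0, Finset.smul_sum]
        exact Finset.sum_congr rfl fun x _ => map_smul _ _ _) }
  have hΨinj : Function.Injective Ψ := by
    intro a b hab
    refine Representation.IntertwiningMap.ext (LinearMap.ext fun u => ?_)
    set x := ((1 : G) : G ⧸ H)
    have h1 : Φ (fun x => a.toLinearMap (σ' (kx x)⁻¹ (σ' (kx ((1 : G) : G ⧸ H)) u))) =
        Φ (fun x => b.toLinearMap (σ' (kx x)⁻¹ (σ' (kx ((1 : G) : G ⧸ H)) u))) := by
      rw [hΦ, hΦ, ← hΨ0, ← hΨ0]
      exact LinearMap.congr_fun (congrArg Representation.IntertwiningMap.toLinearMap hab) _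
    have h2 := congrFun (hΦinj h1) x
    simpa [x, ← Module.End.mul_apply, ← map_mul] using h2
  -- the intertwiner group
  have hL0 : Nat.card G ≠ 0 := Nat.card_pos.ne'
  set Γ := interSubDet σ' (Nat.card G) with hΓdef
  haveI : Finite Γ := finite_interSubDet σ' hL0
  haveI : Fintype Γ := Fintype.ofFinite Γ
  let incl : Γ →* interSub σ' := Subgroup.inclusion inf_le_left
  have hliftΓ : ∀ g : G, ∃ q : Γ, (incl q).1.1 = g := fun g => by
    obtain ⟨S, hS⟩ := exists_mem_interSubDet σ' hL0
      (show g ∈ inertia σ' from fun k => hinvK g k)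
    exact ⟨⟨(g, S), hS⟩, rfl⟩
  let A : Representation ℂ Γ U := (transferRep σ' ρ).comp incl
  haveI hAirr : A.IsIrreducible := transferRep_irreducible σ' ρ incl hliftΓ hUnt
  -- the elements over `K`
  have hK1 : ∀ k : K, transferRep σ' ρ ⟨((k : G), sigmaU σ' k), sigmaU_mem_interSub σ' k⟩ = 1 := by
    intro k
    refine LinearMap.ext fun f => Representation.IntertwiningMap.ext (LinearMap.ext fun w => ?_)
    rw [transferRep_apply]
    show ρ (k : G) (f.toLinearMap ((((sigmaU σ' k)⁻¹ : (Module.End ℂ (Fin d' → ℂ))ˣ) :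
      Module.End ℂ (Fin d' → ℂ)) w)) = f.toLinearMap w
    rw [← map_inv]
    show ρ (k : G) (f.toLinearMap (σ' k⁻¹ w)) = _
    rw [intertwining_apply]
    show ρ (k : G) (ρ ((k⁻¹ : K) : G) _) = _
    rw [← Module.End.mul_apply, ← map_mul, Subgroup.coe_inv, mul_inv_cancel, map_one,
      Module.End.one_apply]
  -- the action of an element over `H`
  have hact : ∀ (h : G) (hh : h ∈ H) (S' : (Module.End ℂ (Fin d' → ℂ))ˣ)
      (hS' : (h, S') ∈ interSub σ') (G₀ : H0), ∃ G₁ : H0,
      transferRep σ' ρ ⟨(h, S'), hS'⟩ (Ψ G₀) = Ψ G₁ ∧ ∀ w, (G₁.toLinearMap w : V) =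
        ρ h (G₀.toLinearMap (((S'⁻¹ : (Module.End ℂ (Fin d' → ℂ))ˣ) :
          Module.End ℂ (Fin d' → ℂ)) w) : V) := by
    intro h hh S' hS' G₀
    have hSinv : ∀ (k : K) (w : Fin d' → ℂ),
        ((S'⁻¹ : (Module.End ℂ (Fin d' → ℂ))ˣ) : Module.End ℂ (Fin d' → ℂ)) (σ' k w) =
          σ' (conjN h⁻¹ k)
            (((S'⁻¹ : (Module.End ℂ (Fin d' → ℂ))ˣ) : Module.End ℂ (Fin d' → ℂ)) w) :=
      fun k w => LinearMap.congr_fun (congrArg Units.val ((interSub σ').inv_mem hS' k)) w
    let g1 : (Fin d' → ℂ) →ₗ[ℂ] V0 :=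
      LinearMap.codRestrict V0 (ρ h ∘ₗ V0.subtype ∘ₗ G₀.toLinearMap ∘ₗ
        ((S'⁻¹ : (Module.End ℂ (Fin d' → ℂ))ˣ) : Module.End ℂ (Fin d' → ℂ)))
        fun w => hV0inv h hh _ (G₀.toLinearMap _).2
    let G₁ : H0 := ⟨g1, fun l => by
      refine LinearMap.ext fun w => Subtype.ext ?_
      show ρ h (G₀.toLinearMap (_) : V) = ρ (l : G) (ρ h (G₀.toLinearMap _ : V))
      rw [show ((S'⁻¹ : (Module.End ℂ (Fin d' → ℂ))ˣ) : Module.End ℂ (Fin d' → ℂ)) (τ l w) =
        τ (conjN h⁻¹ l) (((S'⁻¹ : (Module.End ℂ (Fin d' → ℂ))ˣ) : Module.End ℂ (Fin d' → ℂ)) w) from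
          by
            rw [hτ, MonoidHom.comp_apply, MonoidHom.comp_apply, hSinv]
            congr 2,
        intertwining_apply]
      show ρ h (ρ ((conjN h⁻¹ l : L) : G) _) = _
      rw [← Module.End.mul_apply, ← Module.End.mul_apply (ρ (l : G)), ← map_mul, ← map_mul,
        coe_conjN]
      congr 2
      group⟩
    refine ⟨G₁, Representation.IntertwiningMap.ext (LinearMap.ext fun w => ?_), fun w => rfl⟩
    rw [transferRep_apply]
    show ρ h (Ψ0 G₀ _) = Ψ0 G₁ w
    rw [hΨ0, hΨ0, map_sum]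
    refine Fintype.sum_equiv (MulAction.toPerm h) _ _ fun x => ?_
    set z : G ⧸ H := h • x
    show _ = ρ (kx z : G) (ρ h (G₀.toLinearMap
      (((S'⁻¹ : (Module.End ℂ (Fin d' → ℂ))ˣ) : Module.End ℂ (Fin d' → ℂ))
        (σ' (kx z)⁻¹ w)) : V))
    have hrel : (kx x : G)⁻¹ * ((conjN h⁻¹ (kx z) : K) : G) ∈ H := by
      have h1 : (kx z : G)⁻¹ * (h * (kx x : G)) ∈ H := by
        rw [← QuotientGroup.eq, hkx z]
        show h • x = ((h * (kx x : G) : G) : G ⧸ H)
        have h1 : ((h * (kx x : G) : G) : G ⧸ H) = h • ((kx x : G) : G ⧸ H) := rfl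
        rw [h1, hkx x]
      have h2 := H.mul_mem (H.inv_mem h1) hh
      rw [coe_conjN]
      convert h2 using 1
      group
    rw [hterm G₀ (kx x) (conjN h⁻¹ (kx z)) hrel, hSinv (kx z)⁻¹ w]
    have h3 : conjN h⁻¹ ((kx z)⁻¹ : K) = (conjN h⁻¹ (kx z))⁻¹ :=
      Subtype.ext (by simp [mul_assoc])
    rw [h3, ← Module.End.mul_apply (ρ h), ← map_mul, ← Module.End.mul_apply (ρ (kx z : G)),
      ← map_mul, coe_conjN]
    congr 2
    group
  -- factor through `K`
  have hsplit : ∀ q : Γ, ∃ (h : G) (S' : (Module.End ℂ (Fin d' → ℂ))ˣ) (hh : h ∈ H)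
      (hS' : (h, S') ∈ interSub σ'), A q = transferRep σ' ρ ⟨(h, S'), hS'⟩ := by
    intro q
    obtain ⟨k, hk, h, hh, hkh⟩ := Subgroup.mem_sup_of_normal_left.1
      (by rw [sup_comm, hHK]; exact Subgroup.mem_top _ : (incl q).1.1 ∈ K ⊔ H)
    set kq : interSub σ' := ⟨((k : G), sigmaU σ' ⟨k, hk⟩), sigmaU_mem_interSub σ' ⟨k, hk⟩⟩
    set q' : interSub σ' := kq⁻¹ * incl q with hq'
    have hq'1 : q'.1.1 = h := by
      show k⁻¹ * (incl q).1.1 = h
      rw [← hkh, inv_mul_cancel_left]
    refine ⟨h, q'.1.2, hh, hq'1 ▸ q'.2, ?_⟩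
    have h1 : (⟨(h, q'.1.2), hq'1 ▸ q'.2⟩ : interSub σ') = q' :=
      Subtype.ext (Prod.ext hq'1.symm rfl)
    have hk1 : transferRep σ' ρ kq = 1 := hK1 ⟨k, hk⟩
    show transferRep σ' ρ (incl q) = _
    rw [h1, show incl q = kq * q' by rw [hq', mul_inv_cancel_left], map_mul, hk1, one_mul]
  -- `Ψ` is onto
  have hΨsurj : Function.Surjective Ψ := by
    rw [← LinearMap.range_eq_top]
    refine ((H26.isIrreducible_iff_forall A).1 hAirr).2 _ (fun q f hf => ?_) |>.resolve_left ?_
    · obtain ⟨G₀, rfl⟩ := hf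
      obtain ⟨h, S', hh, hS', hA⟩ := hsplit q
      obtain ⟨G₁, h1, -⟩ := hact h hh S' hS' G₀
      exact ⟨G₁, by rw [hA, h1]⟩
    · intro hbot
      obtain ⟨w, hw⟩ := exists_ne (0 : Fin d' → ℂ)
      obtain ⟨G₀, hG₀⟩ := exists_intertwining_apply_ne_zero hτiso (hσiso.of_injective
        (⟨V0.subtype, fun l => rfl⟩ : Representation.IntertwiningMap τ0 (resRep ρ L))
        Subtype.val_injective) hw
      have h1 : Ψ G₀ = 0 := (Submodule.mem_bot ℂ).1 (hbot ▸ LinearMap.mem_range_self Ψ G₀)
      exact hG₀ (by rw [hΨinj (h1.trans (map_zero Ψ).symm)]; rfl)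
  let Ψe : H0 ≃ₗ[ℂ] U := LinearEquiv.ofBijective Ψ ⟨hΨinj, hΨsurj⟩
  -- precomposition
  let pre : ∀ (P : Module.End ℂ (Fin d' → ℂ)), (∀ l : L, P * τ l = τ l * P) → Module.End ℂ H0 :=
    fun P hP =>
    { toFun := fun G₀ => ⟨G₀.toLinearMap ∘ₗ P, fun l => LinearMap.ext fun w => by
        have h1 : P (τ l w) = τ l (P w) := LinearMap.congr_fun (hP l) w
        simp only [LinearMap.comp_apply, h1, intertwining_apply]⟩
      map_add' := fun a b => Representation.IntertwiningMap.ext (LinearMap.ext fun w => rfl)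
      map_smul' := fun c a => Representation.IntertwiningMap.ext (LinearMap.ext fun w => rfl) }
  have hEτ : ∀ l : L, E * τ l = τ l * E := hEL
  let P : Module.End ℂ U := Ψe.conj (pre E hEτ)
  have hPapply : ∀ G₀, P (Ψ G₀) = Ψ (pre E hEτ G₀) := fun G₀ => by
    show Ψe.conj (pre E hEτ) (Ψe G₀) = Ψe (pre E hEτ G₀)
    rw [LinearEquiv.conj_apply_apply, LinearEquiv.symm_apply_apply]
  have hPP : P * P = P := by
    refine LinearMap.ext fun f => ?_
    obtain ⟨G₀, rfl⟩ := hΨsurj f
    rw [Module.End.mul_apply, hPapply, hPapply]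
    refine congrArg Ψ (Representation.IntertwiningMap.ext (LinearMap.ext fun w => ?_))
    show G₀.toLinearMap (E (E w)) = G₀.toLinearMap (E w)
    rw [← Module.End.mul_apply, hEE]
  have hτ0iso := hσiso.of_injective
    (⟨V0.subtype, fun l => rfl⟩ : Representation.IntertwiningMap τ0 (resRep ρ L))
    Subtype.val_injective
  have hP0 : P ≠ 0 := by
    intro h0
    obtain ⟨w, hw⟩ : ∃ w, E w ≠ 0 := by
      by_contra h; push Not at h; exact hE0 (LinearMap.ext h)
    obtain ⟨G₀, hG₀⟩ := exists_intertwining_apply_ne_zero hτiso hτ0iso hw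
    have h1 : Ψ (pre E hEτ G₀) = Ψ 0 := by rw [← hPapply, h0, map_zero]; rfl
    exact hG₀ (LinearMap.congr_fun (congrArg Representation.IntertwiningMap.toLinearMap
      (hΨinj h1)) w)
  have hP1 : P ≠ 1 := by
    intro h0
    obtain ⟨w, hw⟩ : ∃ w, w - E w ≠ 0 := by
      by_contra h
      push Not at h
      exact hE1 (LinearMap.ext fun w => (sub_eq_zero.1 (h w)).symm)
    obtain ⟨G₀, hG₀⟩ := exists_intertwining_apply_ne_zero hτiso hτ0iso hw
    have h1 : Ψ (pre E hEτ G₀) = Ψ G₀ := by rw [← hPapply, h0]; rfl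
    apply hG₀
    rw [map_sub, sub_eq_zero]
    exact (LinearMap.congr_fun (congrArg Representation.IntertwiningMap.toLinearMap
      (hΨinj h1)) w).symm
  -- the stabilizer
  have hdich : ∀ q : Γ, A q * P = P * A q ∨ P * A q * P = 0 := by
    intro q
    obtain ⟨h, S', hh, hS', hA⟩ := hsplit q
    rcases hEH h hh S' hS' with hc | hc
    · left
      refine LinearMap.ext fun f => ?_
      obtain ⟨G₀, rfl⟩ := hΨsurj f
      rw [Module.End.mul_apply, Module.End.mul_apply, hPapply, hA]
      obtain ⟨G₁, h1, hG₁⟩ := hact h hh S' hS' G₀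
      obtain ⟨G₂, h2, hG₂⟩ := hact h hh S' hS' (pre E hEτ G₀)
      rw [h1, h2, hPapply]
      refine congrArg Ψ (Representation.IntertwiningMap.ext (LinearMap.ext fun w => Subtype.ext ?_))
      show (G₂.toLinearMap w : V) = (G₁.toLinearMap (E w) : V)
      rw [hG₂, hG₁]
      show ρ h (G₀.toLinearMap (E _) : V) = _
      congr 3
      calc E (((S'⁻¹ : (Module.End ℂ (Fin d' → ℂ))ˣ) : Module.End ℂ (Fin d' → ℂ)) w)
          = ((S'⁻¹ : (Module.End ℂ (Fin d' → ℂ))ˣ) : Module.End ℂ (Fin d' → ℂ))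
              (((S' : Module.End ℂ (Fin d' → ℂ)) * E *
                ((S'⁻¹ : (Module.End ℂ (Fin d' → ℂ))ˣ) : Module.End ℂ (Fin d' → ℂ))) w) := by
            simp only [← Module.End.mul_apply, ← mul_assoc, Units.inv_mul, one_mul]
        _ = _ := by rw [hc]
    · right
      refine LinearMap.ext fun f => ?_
      obtain ⟨G₀, rfl⟩ := hΨsurj f
      rw [Module.End.mul_apply, Module.End.mul_apply, hPapply, hA]
      obtain ⟨G₁, h1, hG₁⟩ := hact h hh S' hS' (pre E hEτ G₀)
      rw [h1, hPapply, LinearMap.zero_apply, ← map_zero Ψ]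
      refine congrArg Ψ (Representation.IntertwiningMap.ext (LinearMap.ext fun w => Subtype.ext ?_))
      show (G₁.toLinearMap (E w) : V) = 0
      rw [hG₁]
      show ρ h (G₀.toLinearMap (E (((S'⁻¹ : (Module.End ℂ (Fin d' → ℂ))ˣ) :
        Module.End ℂ (Fin d' → ℂ)) (E w))) : V) = 0
      have h5 : E * ((S'⁻¹ : (Module.End ℂ (Fin d' → ℂ))ˣ) : Module.End ℂ (Fin d' → ℂ)) * E = 0 := by
        rcases hEH h⁻¹ (H.inv_mem hh) S'⁻¹ ((interSub σ').inv_mem hS') with hc' | hc'
        · exfalso
          rw [inv_inv] at hc'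
          have hc2 : (S' : Module.End ℂ (Fin d' → ℂ)) * E *
              ((S'⁻¹ : (Module.End ℂ (Fin d' → ℂ))ˣ) : Module.End ℂ (Fin d' → ℂ)) = E := by
            conv_lhs => rw [← hc']
            simp only [← mul_assoc, Units.mul_inv, one_mul]
            rw [mul_assoc, Units.mul_inv, mul_one]
          rw [hc2, hEE] at hc
          exact hE0 hc
        · rw [inv_inv, ← mul_assoc, ← mul_assoc] at hc'
          have h6 := congrArg
            (· * ((S'⁻¹ : (Module.End ℂ (Fin d' → ℂ))ˣ) : Module.End ℂ (Fin d' → ℂ))) hc'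
          simp only [zero_mul, mul_assoc, Units.mul_inv, mul_one] at h6
          rw [mul_assoc]
          exact h6
      rw [show E (((S'⁻¹ : (Module.End ℂ (Fin d' → ℂ))ˣ) : Module.End ℂ (Fin d' → ℂ)) (E w)) = 0
        from LinearMap.congr_fun h5 w, map_zero, Submodule.coe_zero, map_zero]
  let T : Subgroup Γ :=
    { carrier := {q | A q * P = P * A q}
      one_mem' := show A 1 * P = P * A 1 by rw [map_one, one_mul, mul_one]
      mul_mem' := fun {a b} ha hb => by
        show A (a * b) * P = P * A (a * b)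
        rw [map_mul, mul_assoc, hb, ← mul_assoc, ha, mul_assoc]
      inv_mem' := fun {a} ha => by
        show A a⁻¹ * P = P * A a⁻¹
        calc A a⁻¹ * P = A a⁻¹ * (P * A a) * A a⁻¹ := by
              rw [mul_assoc, mul_assoc, ← map_mul, mul_inv_cancel, map_one, mul_one]
          _ = A a⁻¹ * (A a * P) * A a⁻¹ := by rw [ha]
          _ = P * A a⁻¹ := by rw [← mul_assoc (A a⁻¹), ← map_mul, inv_mul_cancel, map_one, one_mul] }
  obtain ⟨σT, -, -, hindA, -⟩ := H27.exists_indFun_of_block A T P hPP hP0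
    (fun t ht => (ht : A t * P = P * A t).symm) fun q hq => (hdich q).resolve_left hq
  -- the subgroup over `K`
  let π : Γ →* G := (MonoidHom.fst G _).comp Γ.subtype
  refine ⟨Γ, inferInstance, inferInstance, U, inferInstance, inferInstance, inferInstance, A,
    K.comap π, inferInstance, T, σT.character, hAirr, ?_, ?_, ?_, ?_, ?_,
    H26.isCharacter_char σT, hindA⟩
  · rw [← hdeg]
    exact lt_mul_of_one_lt_right hUpos hd'2
  · haveI := hs
    have hGK : Group.IsSolvable (G ⧸ K) :=
      solvable_of_surjective (f := QuotientGroup.map L K (MonoidHom.id G) hLK) (fun x => by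
        obtain ⟨g, rfl⟩ := QuotientGroup.mk'_surjective K x
        exact ⟨(g : G ⧸ L), rfl⟩)
    refine solvable_of_solvable_injective
      (f := QuotientGroup.map (K.comap π) K π le_rfl) ?_
    rw [← MonoidHom.ker_eq_bot_iff, eq_bot_iff]
    intro x hx
    induction x using Quotient.inductionOn' with
    | h q =>
      rw [MonoidHom.mem_ker] at hx
      exact Subgroup.mem_bot.2 ((QuotientGroup.eq_one_iff q).2
        ((QuotientGroup.eq_one_iff (π q)).1 hx))
  · intro N hN hKN U₁ U₂ hU₁ hU₂ hU₁0 hU₂0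
    have hπ : Function.Surjective π := hliftΓ
    have hKN' : K ≤ N.map π := fun k hk => by
      obtain ⟨q, hq⟩ := hπ k
      exact ⟨q, hKN (show π q ∈ K by rw [hq]; exact hk), hq⟩
    obtain ⟨θ, hθ, hθV, v, hv, hv0⟩ := hqp (N.map π) (hN.map π hπ) (hLK.trans hKN')
      (evalImage σ' (resRep ρ K) U₁) (evalImage σ' (resRep ρ K) U₂)
      (by
        rintro _ ⟨q, hq, rfl⟩ v ⟨t, rfl⟩
        induction t using TensorProduct.induction_on with
        | zero => simp
        | tmul f w =>
          have h1 : ρ (π q) (f.1.toLinearMap w) =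
              (A q f.1).toLinearMap (((incl q).1.2 : Module.End ℂ (Fin d' → ℂ)) w) := by
            show _ = (transferRep σ' ρ (incl q) f.1).toLinearMap _
            rw [transferRep_apply, ← Module.End.mul_apply, Units.inv_mul, Module.End.one_apply]
            rfl
          show ρ (π q) (f.1.toLinearMap w) ∈ _
          rw [h1]
          exact apply_mem_evalImage (hU₁ q hq _ f.2) _
        | add a b ha hb =>
          simp only [map_add] at ha hb ⊢
          exact Submodule.add_mem _ ha hb)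
      (by
        rintro _ ⟨q, hq, rfl⟩ v ⟨t, rfl⟩
        induction t using TensorProduct.induction_on with
        | zero => simp
        | tmul f w =>
          have h1 : ρ (π q) (f.1.toLinearMap w) =
              (A q f.1).toLinearMap (((incl q).1.2 : Module.End ℂ (Fin d' → ℂ)) w) := by
            show _ = (transferRep σ' ρ (incl q) f.1).toLinearMap _
            rw [transferRep_apply, ← Module.End.mul_apply, Units.inv_mul, Module.End.one_apply]
            rfl
          show ρ (π q) (f.1.toLinearMap w) ∈ _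
          rw [h1]
          exact apply_mem_evalImage (hU₂ q hq _ f.2) _
        | add a b ha hb =>
          simp only [map_add] at ha hb ⊢
          exact Submodule.add_mem _ ha hb)
      (fun h0 => by
        obtain ⟨f, hf, hf0⟩ := Submodule.exists_mem_ne_zero_of_ne_bot hU₁0
        obtain ⟨w, hw⟩ := exists_apply_ne_zero hf0
        exact hw ((Submodule.mem_bot ℂ).1 (h0 ▸ apply_mem_evalImage hf w)))
      (fun h0 => by
        obtain ⟨f, hf, hf0⟩ := Submodule.exists_mem_ne_zero_of_ne_bot hU₂0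
        obtain ⟨w, hw⟩ := exists_apply_ne_zero hf0
        exact hw ((Submodule.mem_bot ℂ).1 (h0 ▸ apply_mem_evalImage hf w)))
    let Θ : U →ₗ[ℂ] U :=
      { toFun := fun f => ⟨θ ∘ₗ f.toLinearMap, fun k => LinearMap.ext fun w => by
          simp only [LinearMap.comp_apply, intertwining_apply]
          exact hθ _ (hKN' k.2) _⟩
        map_add' := fun a b => Representation.IntertwiningMap.ext
          (LinearMap.ext fun w => map_add θ _ _)
        map_smul' := fun c a => Representation.IntertwiningMap.ext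
          (LinearMap.ext fun w => map_smul θ _ _) }
    refine ⟨Θ, fun q hq f => Representation.IntertwiningMap.ext (LinearMap.ext fun w => ?_),
      fun f hf => mem_of_range_le_evalImage σ' fun w => hθV _ (apply_mem_evalImage hf w), ?_⟩
    · show θ ((transferRep σ' ρ (incl q) f).toLinearMap w) =
        (transferRep σ' ρ (incl q) (Θ f)).toLinearMap w
      rw [transferRep_apply, transferRep_apply]
      exact hθ _ ⟨q, hq, rfl⟩ _
    · by_contra hall
      push Not at hall
      apply hv0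
      obtain ⟨t, rfl⟩ := hv
      clear hv0
      induction t using TensorProduct.induction_on with
      | zero => simp
      | tmul f w =>
        exact LinearMap.congr_fun
          (congrArg Representation.IntertwiningMap.toLinearMap (hall f.1 f.2)) w
      | add a b ha hb => rw [map_add, map_add, ha, hb, add_zero]
  · intro htop
    have hscal := H25.eq_smul_id_of_comm A P fun q => by
      have : A q * P = P * A q := (htop ▸ Subgroup.mem_top q : q ∈ T)
      exact this.symm
    set c := LinearMap.trace ℂ U P / (finrank ℂ U : ℂ)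
    have h2 : c * c = c := by
      obtain ⟨f, hf⟩ := exists_ne (0 : U)
      have h3 := LinearMap.congr_fun hPP f
      rw [hscal] at h3
      simp only [Module.End.mul_apply, LinearMap.smul_apply, LinearMap.id_apply, smul_smul] at h3
      exact smul_left_injective ℂ hf h3
    rcases mul_eq_zero.1 (show c * (c - 1) = 0 by linear_combination h2) with h | h
    · exact hP0 (by rw [hscal, h, zero_smul])
    · exact hP1 (by rw [hscal, sub_eq_zero.1 h, one_smul]; rfl)
  · intro q hq
    set k : K := ⟨π q, hq⟩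
    obtain ⟨c, hc⟩ := exists_scalar_of_mem_interSub (sigmaU_mem_interSub σ' k) (incl q).2
    have hAq : ∀ f, A q f = ((c⁻¹ : ℂˣ) : ℂ) • f := by
      intro f
      refine Representation.IntertwiningMap.ext (LinearMap.ext fun w => ?_)
      show (transferRep σ' ρ (incl q) f).toLinearMap w = _
      rw [transferRep_apply,
        show (incl q).1.2 = scalarU c * sigmaU σ' k from hc, mul_inv_rev, ← map_inv scalarU, Units.val_mul,
        Module.End.mul_apply, scalarU_coe]
      show ρ (k : G) (f.toLinearMap ((((sigmaU σ' k)⁻¹ : (Module.End ℂ (Fin d' → ℂ))ˣ) :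
        Module.End ℂ (Fin d' → ℂ)) (((c⁻¹ : ℂˣ) : ℂ) • w))) = ((c⁻¹ : ℂˣ) : ℂ) • f.toLinearMap w
      rw [map_smul, map_smul, map_smul]
      congr 1
      exact LinearMap.congr_fun (congrArg Representation.IntertwiningMap.toLinearMap
        (LinearMap.congr_fun (hK1 k) f)) w
    show A q * P = P * A q
    refine LinearMap.ext fun f => ?_
    rw [Module.End.mul_apply, Module.End.mul_apply, hAq, hAq, map_smul]

/-- **Berger's theorem**, general form. -/
theorem not_induced_of_homog : ∀ (n : ℕ) (G : Type u) [Group G] [Fintype G] (V : Type)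
    [AddCommGroup V] [Module ℂ V] [FiniteDimensional ℂ V] (ρ : Representation ℂ G V)
    [ρ.IsIrreducible] (L : Subgroup G) [L.Normal],
    finrank ℂ V = n → Group.IsSolvable (G ⧸ L) →
    (∀ N : Subgroup G, N.Normal → L ≤ N → IsHomog ρ N) →
    ∀ H : Subgroup G, H ≠ ⊤ → L ≤ H → ∀ ψ : H → ℂ, Cfsg.IsCharacter H ψ →
      ρ.character ≠ Cfsg.indFun H ψ := by
  intro n
  induction n using Nat.strong_induction_on with
  | _ n ih =>
    intro G _ _ V _ _ _ ρ _ L hLn hn hs hqp H hH hLH ψ hψ hind
    classical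
    obtain ⟨M, hM, hHM⟩ := (eq_top_or_exists_le_coatom H).resolve_left hH
    haveI : Fintype M := Fintype.ofFinite M
    set θ := Cfsg.indFun (H.subgroupOf M)
      (fun x => ψ ⟨(x : M), Subgroup.mem_subgroupOf.mp x.2⟩) with hθ
    have hθc : Cfsg.IsCharacter M θ := H25.isCharacter_indFun _ (by
      have := H26.isCharacter_comp hψ (Subgroup.subgroupOfEquivOfLe hHM).toMonoidHom
      exact this)
    have hind' : ρ.character = Cfsg.indFun M θ := by
      rw [hind, hθ, H25.indFun_trans H M hHM ψ]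
    have hLc : L ≤ M.normalCore := Subgroup.normal_le_normalCore.2 (hLH.trans hHM)
    have hs' : Group.IsSolvable (G ⧸ M.normalCore) := by
      haveI := hs
      exact solvable_of_surjective
        (f := QuotientGroup.map L M.normalCore (MonoidHom.id G) hLc) (fun x => by
          obtain ⟨g, rfl⟩ := QuotientGroup.mk'_surjective _ x
          exact ⟨(g : G ⧸ L), rfl⟩)
    obtain ⟨Γ, _, _, U, _, _, _, A, K, _, T, ψ', hA, hlt, hsol, hhom, hT, hKT, hψ', hindA⟩ :=
      exists_smaller ρ M hM hs' (fun N hN hle => hqp N hN (hLc.trans hle)) θ hθc hind'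
    exact ih _ (hn ▸ hlt) Γ U A K rfl hsol hhom T hT hKT ψ' hψ' hindA

end Cfsg.Agent.H39
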