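import Mathlib
import Cfsg.Agent.H19.MinimalNormal

/-!
# The chief section under a core-quotient with solvable top

For a maximal subgroup `H` with solvable `G / core H`, a normal complement section `K` of prime
exponent and, if `H` is not normal, a section `B` of `H` of a different prime exponent acting
faithfully on it.
-/

namespace Cfsg.Agent.H39

/-- Around a maximal subgroup whose core has solvable quotient. -/
lemma exists_chief_data {G : Type*} [Group G] [Finite G] (H : Subgroup G) (hH : IsCoatom H)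
    (hs : Group.IsSolvable (G ⧸ H.normalCore)) :
    ∃ (K : Subgroup G) (p : ℕ), p.Prime ∧ K.Normal ∧ H.normalCore ≤ K ∧ H ⊔ K = ⊤ ∧
      H ⊓ K = H.normalCore ∧ (∃ s, H.normalCore.relIndex K = p ^ s) ∧
      ((H = H.normalCore ∧ H.normalCore.relIndex K = p) ∨
        ∃ (B : Subgroup G) (r : ℕ), r.Prime ∧ r ≠ p ∧ H.normalCore ≤ B ∧ B ≤ H ∧
          B ≠ H.normalCore ∧ (∀ h ∈ H, ∀ b ∈ B, h * b * h⁻¹ ∈ B) ∧
          (∀ b ∈ B, b ^ r ∈ H.normalCore) ∧
          (∀ b ∈ B, ∀ b' ∈ B, b * b' * b⁻¹ * b'⁻¹ ∈ H.normalCore) ∧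
          ∀ b ∈ B, (∀ k ∈ K, b * k * b⁻¹ * k⁻¹ ∈ H.normalCore) → b ∈ H.normalCore) := by
  set L := H.normalCore
  have hLH : L ≤ H := Subgroup.normalCore_le H
  set π := QuotientGroup.mk' L
  have hπ : Function.Surjective π := QuotientGroup.mk'_surjective L
  have hker : ∀ {x : G}, π x = 1 ↔ x ∈ L := fun {x} => QuotientGroup.eq_one_iff x
  set Hb := H.map π
  have hHb : Hb.comap π = H := by
    rw [Subgroup.comap_map_eq_self]
    rw [QuotientGroup.ker_mk']; exact hLH
  -- a normal subgroup of the quotient inside `Hb` is trivial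
  have hcore : ∀ X : Subgroup (G ⧸ L), X.Normal → X ≤ Hb → X = ⊥ := by
    intro X hX hle
    haveI := hX
    rw [eq_bot_iff]
    intro x hx
    obtain ⟨g, rfl⟩ := hπ x
    rw [Subgroup.mem_bot]
    exact hker.2 ((Subgroup.normal_le_normalCore (N := X.comap π)).2
      ((Subgroup.comap_mono hle).trans hHb.le) hx)
  have hne : (⊤ : Subgroup (G ⧸ L)) ≠ ⊥ := by
    intro h
    apply hH.1
    rw [← hHb, eq_top_iff]
    intro g _
    show π g ∈ Hb
    have : π g = 1 := by
      rw [← Subgroup.mem_bot, ← h]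
      exact Subgroup.mem_top _
    rw [this]
    exact one_mem _
  haveI : Group.IsSolvable (⊤ : Subgroup (G ⧸ L)) := inferInstance
  obtain ⟨A, p, hAn, -, hA0, hAc, hp, hApg, hAp⟩ :=
    H19.exists_normal_elementary_le (⊤ : Subgroup (G ⧸ L)) inferInstance hne
  haveI := hAn
  have hcommA : ∀ a ∈ A, ∀ a' ∈ A, a * a' = a' * a := fun a ha a' ha' =>
    congrArg Subtype.val (hAc.is_comm.comm (⟨a, ha⟩ : A) ⟨a', ha'⟩)
  set K := A.comap π
  have hLK : L ≤ K := fun x hx => by
    show π x ∈ A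
    rw [hker.2 hx]; exact one_mem _
  have hAH : ¬ A ≤ Hb := fun h => hA0 (hcore A hAn h)
  have hHK : H ⊔ K = ⊤ := by
    refine (hH.le_iff.1 le_sup_left).resolve_right fun h => hAH ?_
    have hKH : K ≤ H := h ▸ le_sup_right
    intro a ha
    obtain ⟨g, rfl⟩ := hπ a
    exact ⟨g, hKH ha, rfl⟩
  have htop : Hb ⊔ A = ⊤ := by
    rw [← Subgroup.map_comap_eq_self_of_surjective hπ A, ← Subgroup.map_sup, hHK,
      Subgroup.map_top_of_surjective _ hπ]
  -- a subgroup normalised by `Hb` and `A` is normal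
  have hnormal : ∀ X : Subgroup (G ⧸ L), (∀ g ∈ Hb, ∀ x ∈ X, g * x * g⁻¹ ∈ X) →
      (∀ g ∈ A, ∀ x ∈ X, g * x * g⁻¹ ∈ X) → X.Normal := by
    intro X h1 h2
    refine ⟨fun x hx g => ?_⟩
    have hg : g ∈ Hb ⊔ A := htop ▸ Subgroup.mem_top g
    obtain ⟨u, hu, a, ha, rfl⟩ := Subgroup.mem_sup_of_normal_right.1 hg
    have := h1 u hu _ (h2 a ha x hx)
    simpa [mul_assoc] using this
  have hAHb : A ⊓ Hb = ⊥ := by
    refine hcore _ (hnormal _ ?_ ?_) inf_le_right
    · exact fun g hg x hx => ⟨hAn.conj_mem x hx.1 g,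
        Hb.mul_mem (Hb.mul_mem hg hx.2) (Hb.inv_mem hg)⟩
    · intro g hg x hx
      rw [hcommA g hg x hx.1, mul_inv_cancel_right]
      exact hx
  have hinf : H ⊓ K = L := by
    refine le_antisymm (fun x hx => hker.1 ?_) (le_inf hLH hLK)
    rw [← Subgroup.mem_bot, ← hAHb]
    exact ⟨hx.2, ⟨x, hx.1, rfl⟩⟩
  have hrel : L.relIndex K = Nat.card A := by
    conv_lhs => rw [← QuotientGroup.ker_mk' L]
    rw [Subgroup.relIndex_ker, ← Subgroup.map_comap_eq_self_of_surjective hπ A]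
  haveI : Fact p.Prime := ⟨hp⟩
  obtain ⟨s, hs'⟩ := IsPGroup.iff_card.1 hApg
  -- minimality of `A`
  have hmin : ∀ X : Subgroup (G ⧸ L), X.Normal → X ≤ A → X ≠ ⊥ → X = A := by
    intro X hX hXA hX0
    haveI := hX
    refine le_antisymm hXA fun a ha => ?_
    have h1 : Hb ⊔ X = ⊤ := by
      have h2 : H ≤ H ⊔ X.comap π := le_sup_left
      rcases hH.le_iff.1 h2 with h | h
      · rw [← Subgroup.map_comap_eq_self_of_surjective hπ X, ← Subgroup.map_sup, h,
          Subgroup.map_top_of_surjective _ hπ]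
      · exfalso
        apply hX0
        refine hcore X hX fun x hx => ?_
        obtain ⟨g, rfl⟩ := hπ x
        exact ⟨g, ((le_sup_right : X.comap π ≤ _).trans h.le) hx, rfl⟩
    obtain ⟨u, hu, x, hx, hux⟩ :=
      Subgroup.mem_sup_of_normal_right.1 (h1 ▸ Subgroup.mem_top a : a ∈ Hb ⊔ X)
    have hu1 : u = 1 := by
      rw [← Subgroup.mem_bot, ← hAHb]
      refine ⟨?_, hu⟩
      have : u = a * x⁻¹ := by rw [← hux, mul_inv_cancel_right]
      rw [this]
      exact A.mul_mem ha (A.inv_mem (hXA hx))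
    rw [hu1, one_mul] at hux
    exact hux ▸ hx
  have hcent : Hb ⊓ Subgroup.centralizer (A : Set (G ⧸ L)) = ⊥ := by
    refine hcore _ (hnormal _ ?_ ?_) inf_le_left
    · rintro g hg x ⟨hx1, hx2⟩
      refine ⟨Hb.mul_mem (Hb.mul_mem hg hx1) (Hb.inv_mem hg),
        Subgroup.mem_centralizer_iff.2 fun a ha => ?_⟩
      have h := Subgroup.mem_centralizer_iff.1 hx2 (g⁻¹ * a * g)
        (by have h0 := hAn.conj_mem a ha g⁻¹; rwa [inv_inv] at h0)
      calc a * (g * x * g⁻¹) = g * ((g⁻¹ * a * g) * x) * g⁻¹ := by group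
        _ = g * (x * (g⁻¹ * a * g)) * g⁻¹ := by rw [h]
        _ = g * x * g⁻¹ * a := by group
    · rintro g hg x ⟨hx1, hx2⟩
      rw [Subgroup.mem_centralizer_iff.1 hx2 g hg, mul_inv_cancel_right]
      exact ⟨hx1, hx2⟩
  refine ⟨K, p, hp, inferInstance, hLK, hHK, hinf, ⟨s, hrel.trans hs'⟩, ?_⟩
  by_cases hb : Hb = ⊥
  · left
    have hHL : H = L := le_antisymm (fun x hx => hker.1 (by
      rw [← Subgroup.mem_bot, ← hb]; exact ⟨x, hx, rfl⟩)) hLH
    refine ⟨hHL, hrel.trans ?_⟩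
    have htopA : A = ⊤ := by rw [← htop, hb, bot_sup_eq]
    obtain ⟨x, hxA, hx1⟩ : ∃ x ∈ A, x ≠ 1 := by
      by_contra h
      push Not at h
      exact hA0 ((Subgroup.eq_bot_iff_forall A).2 h)
    have hzn : (Subgroup.zpowers x).Normal := by
      refine ⟨fun y hy g => ?_⟩
      have hg : g ∈ A := htopA ▸ Subgroup.mem_top g
      rw [hcommA g hg y (Subgroup.zpowers_le.2 hxA hy), mul_inv_cancel_right]
      exact hy
    have := hmin _ hzn (Subgroup.zpowers_le.2 hxA) (fun h => hx1 (Subgroup.zpowers_eq_bot.1 h))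
    rw [← this, Nat.card_zpowers]
    exact orderOf_eq_prime (hAp x hxA) hx1
  · right
    have hneH : (⊤ : Subgroup Hb) ≠ ⊥ := fun h => hb ((Subgroup.eq_bot_iff_forall Hb).2 fun x hx =>
      congrArg Subtype.val ((Subgroup.mem_bot (G := Hb)).1 (h ▸ Subgroup.mem_top (⟨x, hx⟩ : Hb))))
    obtain ⟨B₀, r, hBn, -, hB0, hBc, hr, hBpg, hBr⟩ :=
      H19.exists_normal_elementary_le (⊤ : Subgroup Hb) inferInstance hneH
    set Bb := B₀.map Hb.subtype
    have hBbH : Bb ≤ Hb := Subgroup.map_subtype_le B₀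
    have hBb0 : Bb ≠ ⊥ := fun h => hB0
      (Subgroup.map_injective Hb.subtype_injective (h.trans (Subgroup.map_bot _).symm))
    have hBbn : ∀ g ∈ Hb, ∀ x ∈ Bb, g * x * g⁻¹ ∈ Bb := by
      rintro g hg _ ⟨y, hy, rfl⟩
      exact ⟨⟨g, hg⟩ * y * ⟨g, hg⟩⁻¹, hBn.conj_mem y hy _, by simp⟩
    refine ⟨Bb.comap π, r, hr, ?_, fun x hx => ?_, ?_, ?_, ?_, ?_, ?_, ?_⟩
    · rintro rfl
      -- the fixed points of `Bb` on `A`
      set F := A ⊓ Subgroup.centralizer (Bb : Set (G ⧸ L))
      have hFn : F.Normal := by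
        refine hnormal _ ?_ ?_
        · rintro g hg x ⟨hx1, hx2⟩
          refine ⟨hAn.conj_mem x hx1 g, Subgroup.mem_centralizer_iff.2 fun b hb' => ?_⟩
          have h := Subgroup.mem_centralizer_iff.1 hx2 (g⁻¹ * b * g)
            (by have h0 := hBbn g⁻¹ (Hb.inv_mem hg) b hb'; rwa [inv_inv] at h0)
          calc b * (g * x * g⁻¹) = g * ((g⁻¹ * b * g) * x) * g⁻¹ := by group
            _ = g * (x * (g⁻¹ * b * g)) * g⁻¹ := by rw [h]
            _ = g * x * g⁻¹ * b := by group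
        · intro g hg x hx
          rw [hcommA g hg x hx.1, mul_inv_cancel_right]
          exact hx
      have hF0 : F ≠ ⊥ := by
        letI : MulAction B₀ A :=
          { smul := fun b a => ⟨((b : Hb) : G ⧸ L) * a * ((b : Hb) : G ⧸ L)⁻¹,
              hAn.conj_mem (a : G ⧸ L) a.2 _⟩
            one_smul := fun a => Subtype.ext (by
              show ((1 : B₀) : Hb).1 * (a : G ⧸ L) * ((1 : B₀) : Hb).1⁻¹ = a
              simp)
            mul_smul := fun b b' a => Subtype.ext (by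
              show (((b * b' : B₀) : Hb) : G ⧸ L) * (a : G ⧸ L) * (((b * b' : B₀) : Hb) : G ⧸ L)⁻¹ =
                ((b : Hb) : G ⧸ L) *
                  (((b' : Hb) : G ⧸ L) * a * ((b' : Hb) : G ⧸ L)⁻¹) * ((b : Hb) : G ⧸ L)⁻¹
              simp [mul_assoc]) }
        have hdvd : r ∣ Nat.card A := by
          rw [hs']
          refine dvd_pow_self r fun h0 => hA0 (Subgroup.card_eq_one.1 ?_)
          rw [hs', h0, pow_zero]
        have hone : (1 : A) ∈ MulAction.fixedPoints B₀ A := fun b => Subtype.ext (by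
          show ((b : Hb) : G ⧸ L) * ((1 : A) : G ⧸ L) * ((b : Hb) : G ⧸ L)⁻¹ = _
          simp)
        obtain ⟨a, ha, ha1⟩ :=
          hBpg.exists_fixed_point_of_prime_dvd_card_of_fixed_point A hdvd hone
        intro hF
        apply ha1
        have : (a : G ⧸ L) ∈ F := by
          refine ⟨a.2, Subgroup.mem_centralizer_iff.2 ?_⟩
          rintro _ ⟨b, hb', rfl⟩
          exact mul_inv_eq_iff_eq_mul.1 (congrArg Subtype.val (ha ⟨b, hb'⟩))
        rw [hF, Subgroup.mem_bot] at this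
        exact Subtype.ext this.symm
      have hFA := hmin F hFn inf_le_left hF0
      apply hBb0
      rw [eq_bot_iff, ← hcent]
      refine le_inf hBbH fun b hb' => Subgroup.mem_centralizer_iff.2 fun a ha => ?_
      have : a ∈ F := hFA.symm ▸ ha
      exact (Subgroup.mem_centralizer_iff.1 this.2 b hb').symm
    · show π x ∈ Bb
      rw [hker.2 hx]; exact one_mem _
    · exact (Subgroup.comap_mono hBbH).trans hHb.le
    · intro h
      apply hBb0
      rw [← Subgroup.map_comap_eq_self_of_surjective hπ Bb, h, eq_bot_iff]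
      rintro _ ⟨x, hx, rfl⟩
      exact hker.2 hx
    · intro h hh b hb'
      show π (h * b * h⁻¹) ∈ Bb
      rw [map_mul, map_mul, map_inv]
      exact hBbn _ ⟨h, hh, rfl⟩ _ hb'
    · intro b hb'
      obtain ⟨y, hy, hyb⟩ := hb'
      refine hker.1 ?_
      rw [map_pow, ← hyb, ← map_pow, hBr y hy, map_one]
    · intro b hb₁ b' hb₂
      obtain ⟨y, hy, hyb⟩ := hb₁
      obtain ⟨z, hz, hzb⟩ := hb₂
      refine hker.1 ?_
      rw [map_mul, map_mul, map_mul, map_inv, map_inv, ← hyb, ← hzb, ← map_inv, ← map_inv,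
        ← map_mul, ← map_mul, ← map_mul]
      have hc : y * z = z * y := congrArg Subtype.val (hBc.is_comm.comm (⟨y, hy⟩ : B₀) ⟨z, hz⟩)
      rw [hc, mul_inv_cancel_right, mul_inv_cancel, map_one]
    · intro b hb' hall
      refine hker.1 ?_
      rw [← Subgroup.mem_bot, ← hcent]
      refine ⟨hBbH hb', Subgroup.mem_centralizer_iff.2 fun a ha => ?_⟩
      obtain ⟨k, rfl⟩ := hπ a
      have h := hker.2 (hall k ha)
      rw [map_mul, map_mul, map_mul, map_inv, map_inv, mul_inv_eq_one, mul_inv_eq_iff_eq_mul] at h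
      exact h.symm

end Cfsg.Agent.H39
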