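import Cfsg.Agent.H39.CharNilp
import Cfsg.Agent.H39.IndFun
import Cfsg.Agent.H24.Extraspecial
import Cfsg.Agent.H25.CharInd
import Cfsg.Agent.H25.IndRep
import Cfsg.Agent.H26.CharLinear

/-!
# Characters of extraspecial groups
-/

namespace Cfsg.Agent.H39

universe u

open scoped commutatorElement ComplexConjugate

variable {P : Type u} [Group P] [Fintype P] {p : ℕ} [hp : Fact p.Prime]

/-- A non-central element is conjugate to each translate by a central element. -/
lemma espec_conj_translate (hP : Cfsg.IsExtraspecial p P) {g : P} (hg : g ∉ Subgroup.center P)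
    {z : P} (hz : z ∈ Subgroup.center P) : ∃ y : P, y * g * y⁻¹ = z * g := by
  obtain ⟨y, hy⟩ := H24.espec_exists_comm_eq hP hg (inv_mem hz)
  refine ⟨y, ?_⟩
  rw [commutatorElement_def] at hy
  calc y * g * y⁻¹ = (g * y * g⁻¹ * y⁻¹)⁻¹ * g := by group
    _ = z * g := by rw [hy, inv_inv]

/-- A class function with a non-trivial central multiplier vanishes off the centre. -/
lemma espec_vanish (hP : Cfsg.IsExtraspecial p P) {f : P → ℂ} (hf : Cfsg.IsClassFunction P f)
    {z : P} (hz : z ∈ Subgroup.center P) {w : ℂ} (hw : w ≠ 1) (hmul : ∀ g, f (z * g) = w * f g)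
    {g : P} (hg : g ∉ Subgroup.center P) : f g = 0 := by
  obtain ⟨y, hy⟩ := espec_conj_translate hP hg hz
  have h : w * f g = f g := by rw [← hmul, ← hy, hf g y]
  have h' : (w - 1) * f g = 0 := by linear_combination h
  exact (mul_eq_zero.1 h').resolve_left (sub_ne_zero.2 hw)

variable {n : ℕ}

lemma espec_index_center (hP : Cfsg.IsExtraspecial p P)
    (hcard : Nat.card P = p ^ (2 * n + 1)) : (Subgroup.center P).index = p ^ (2 * n) := by
  have h := (Subgroup.center P).index_mul_card
  rw [hP.2, hcard, pow_succ] at h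
  exact mul_right_cancel₀ hp.out.pos.ne' h

/-- A character not trivial on the centre has degree `p ^ n`. -/
lemma espec_deg_of_not_trivOn (hP : Cfsg.IsExtraspecial p P)
    (hcard : Nat.card P = p ^ (2 * n + 1)) {χ : Cfsg.IrrCharacter P}
    (hχ : ¬ TrivOn (Subgroup.center P) χ) : degOf χ = p ^ n := by
  classical
  simp only [TrivOn, not_forall, exists_prop] at hχ
  obtain ⟨z, hz, hne⟩ := hχ
  have hd := degOf_spec χ
  obtain ⟨d, ρ, hirr, e⟩ := id χ.2
  haveI := hirr
  rw [← e, Representation.char_one, Nat.cast_inj] at hd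
  have hcomm : ∀ {c : P}, c ∈ Subgroup.center P → ∀ g, ρ c ∘ₗ ρ g = ρ g ∘ₗ ρ c := fun hc g => by
    simp only [← Module.End.mul_eq_comp, ← map_mul, Subgroup.mem_center_iff.1 hc g]
  have hs := H25.eq_smul_id_of_comm ρ (ρ z) (hcomm hz)
  set w := LinearMap.trace ℂ (Fin d → ℂ) (ρ z) / (Module.finrank ℂ (Fin d → ℂ) : ℂ)
  have hw : w ≠ 1 := by
    intro h
    apply hne
    rw [← e, Representation.char_one, H25.char_eq_degree_iff, hs, h, one_smul]
  have hmul : ∀ g, χ.1 (z * g) = w * χ.1 g := fun g => by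
    simp only [← e, Representation.character, map_mul, hs, smul_mul_assoc, map_smul, smul_eq_mul,
      ← Module.End.one_eq_id, one_mul]
  have hvan : ∀ g, g ∉ Subgroup.center P → χ.1 g = 0 :=
    fun g => espec_vanish hP (H26.irr_isClassFunction χ) hz hw hmul
  have hnorm : ∀ c ∈ Subgroup.center P, ‖χ.1 c‖ = (degOf χ : ℝ) := fun c hc => by
    rw [← hd, ← e, H25.norm_char_eq_of_scalar ρ c _ (H25.eq_smul_id_of_comm ρ (ρ c) (hcomm hc))]
  have h1 := H26.classInner_irr χ χ
  rw [if_pos rfl, Cfsg.classInner, inv_mul_eq_iff_eq_mul₀ (Nat.cast_ne_zero.2 Nat.card_pos.ne'),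
    mul_one, ← Finset.sum_subset (s₁ := Finset.univ.filter (· ∈ Subgroup.center P))
      (Finset.subset_univ _) (fun g _ hg => by rw [hvan g (by simpa using hg), zero_mul]),
    Finset.sum_congr rfl (g := fun _ => (degOf χ : ℂ) ^ 2) (fun c hc => by
      rw [Complex.mul_conj', hnorm c (Finset.mem_filter.1 hc).2]
      push_cast
      rfl),
    Finset.sum_const, nsmul_eq_mul, ← Fintype.card_subtype, ← Nat.card_eq_fintype_card,
    hcard] at h1
  have h2 : Nat.card {x // x ∈ Subgroup.center P} * degOf χ ^ 2 = p ^ (2 * n + 1) := by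
    exact_mod_cast h1
  rw [hP.2, pow_succ' p (2 * n), mul_comm 2 n, pow_mul] at h2
  exact Nat.pow_left_injective two_ne_zero (mul_left_cancel₀ hp.out.pos.ne' h2)

/-- A character trivial on the centre is linear. -/
lemma espec_deg_of_trivOn (hP : Cfsg.IsExtraspecial p P) {χ : Cfsg.IrrCharacter P}
    (hχ : TrivOn (Subgroup.center P) χ) : degOf χ = 1 := by
  classical
  have hlin : (Finset.univ.filter fun ψ : Cfsg.IrrCharacter P => degOf ψ = 1) ⊆
      Finset.univ.filter (TrivOn (Subgroup.center P)) := by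
    intro ψ hψ
    simp only [Finset.mem_filter, Finset.mem_univ, true_and] at hψ ⊢
    obtain ⟨f, hf⟩ := H26.exists_hom_of_isCharacter_one (H26.irr_isCharacter ψ)
      (by rw [degOf_spec, hψ, Nat.cast_one])
    intro a ha
    have hfa : f a = 1 := Abelianization.commutator_subset_ker f (hP.1.2.2.symm ▸ ha)
    simp [← hf, hfa]
  have h1 := sum_sq_trivOn (Subgroup.center P)
  rw [← Finset.sum_sdiff hlin,
    Finset.sum_congr rfl (s₁ := Finset.univ.filter fun ψ : Cfsg.IrrCharacter P => degOf ψ = 1)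
      (g := fun _ => 1) (fun ψ hψ => by rw [(Finset.mem_filter.1 hψ).2, one_pow]),
    Finset.sum_const, smul_eq_mul, mul_one, card_linear, hP.1.2.2] at h1
  by_contra hne
  have h2 := Finset.single_le_sum (f := fun ψ : Cfsg.IrrCharacter P => degOf ψ ^ 2)
    (fun _ _ => Nat.zero_le _) (show χ ∈ (Finset.univ.filter (TrivOn (Subgroup.center P))) \
      (Finset.univ.filter fun ψ : Cfsg.IrrCharacter P => degOf ψ = 1) by simp [hχ, hne])
  have h3 : 0 < degOf χ ^ 2 := pow_pos (degOf_pos χ) 2
  omega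

lemma espec_pow_n_ne_one (hP : Cfsg.IsExtraspecial p P)
    (hcard : Nat.card P = p ^ (2 * n + 1)) : p ^ n ≠ 1 := by
  intro h
  rcases Nat.eq_zero_or_pos n with rfl | hn
  · exact H24.espec_center_ne_top hP
      (Subgroup.eq_top_of_card_eq _ (by rw [hP.2, hcard]; simp))
  · exact (Nat.one_lt_pow hn.ne' hp.out.one_lt).ne' h

/-- Exactly `p - 1` characters are not linear. -/
lemma espec_card_faithful (hP : Cfsg.IsExtraspecial p P) (hcard : Nat.card P = p ^ (2 * n + 1)) :
    (Finset.univ.filter fun χ : Cfsg.IrrCharacter P => degOf χ = p ^ n).card = p - 1 := by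
  classical
  have hiff : ∀ χ : Cfsg.IrrCharacter P,
      degOf χ = p ^ n ↔ ¬ TrivOn (Subgroup.center P) χ := fun χ =>
    ⟨fun h ht => espec_pow_n_ne_one hP hcard (h.symm.trans (espec_deg_of_trivOn hP ht)),
      espec_deg_of_not_trivOn hP hcard⟩
  have hall : ∑ χ : Cfsg.IrrCharacter P, degOf χ ^ 2 = Nat.card P := by
    have h := sum_sq_trivOn (⊥ : Subgroup P)
    rw [Subgroup.index_bot, Finset.filter_true_of_mem] at h
    · exact h
    · intro χ _ a ha
      rw [Subgroup.mem_bot.1 ha]
  rw [Finset.filter_congr (fun χ _ => hiff χ)]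
  rw [← Finset.sum_filter_add_sum_filter_not Finset.univ (TrivOn (Subgroup.center P)),
    sum_sq_trivOn, espec_index_center hP hcard, hcard,
    Finset.sum_congr rfl (g := fun _ => p ^ (2 * n)) (fun χ hχ => by
      rw [espec_deg_of_not_trivOn hP hcard (Finset.mem_filter.1 hχ).2, ← pow_mul, mul_comm]),
    Finset.sum_const, smul_eq_mul, pow_succ] at hall
  set N := (Finset.univ.filter fun χ : Cfsg.IrrCharacter P =>
    ¬ TrivOn (Subgroup.center P) χ).card
  have h2 : p ^ (2 * n) * (1 + N) = p ^ (2 * n) * p := by linarith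
  have := mul_left_cancel₀ (pow_ne_zero _ hp.out.pos.ne') h2
  omega

/-- Inducing a linear character non-trivial on the centre from an abelian subgroup of order
`p ^ (n + 1)` gives an irreducible character vanishing off the centre. -/
theorem espec_indFun_linear (hP : Cfsg.IsExtraspecial p P) (hcard : Nat.card P = p ^ (2 * n + 1))
    (A : Subgroup P) (hA : Nat.card A = p ^ (n + 1)) (lam : A →* ℂˣ)
    (a : A) (ha : (a : P) ∈ Subgroup.center P) (hlam : lam a ≠ 1) :
    Cfsg.IsIrrCharacter P (Cfsg.indFun A fun x => (lam x : ℂ)) ∧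
      ∀ x : P, x ∉ Subgroup.center P → Cfsg.indFun A (fun x => (lam x : ℂ)) x = 0 := by
  classical
  set θ : A → ℂ := fun x => (lam x : ℂ)
  have hZA : Subgroup.center P ≤ A := by
    rw [← H24.zpowers_eq_of_card_prime hP.2 ha
      (fun h => hlam (by rw [show a = 1 from Subtype.ext h, map_one])), Subgroup.zpowers_le]
    exact a.2
  have hext : ∀ (c : A), (c : P) ∈ Subgroup.center P → ∀ y : P,
      Cfsg.extendByZero A θ (c * y) = (lam c : ℂ) * Cfsg.extendByZero A θ y := by
    intro c _ y
    by_cases hy : y ∈ A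
    · rw [extendByZero_of_mem _ (mul_mem c.2 hy), extendByZero_of_mem _ hy]
      simp only [θ, ← Units.val_mul, ← map_mul]
      rfl
    · rw [extendByZero_of_not_mem _ hy,
        extendByZero_of_not_mem _ (fun h => hy ((A.mul_mem_cancel_left c.2).1 h)), mul_zero]
  have hmul : ∀ (c : A), (c : P) ∈ Subgroup.center P → ∀ g : P,
      Cfsg.indFun A θ (c * g) = (lam c : ℂ) * Cfsg.indFun A θ g := by
    intro c hc g
    simp only [Cfsg.indFun]
    rw [mul_left_comm, Finset.mul_sum Finset.univ _ (lam c : ℂ)]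
    congr 1
    refine Finset.sum_congr rfl fun x _ => ?_
    rw [← hext c hc]
    congr 1
    rw [← mul_assoc x⁻¹, Subgroup.mem_center_iff.1 hc x⁻¹, mul_assoc, mul_assoc, mul_assoc]
  have hvan : ∀ x : P, x ∉ Subgroup.center P → Cfsg.indFun A θ x = 0 := fun x hx =>
    espec_vanish hP (isClassFunction_indFun A θ) ha
      (fun h => hlam (Units.ext h)) (hmul a ha) hx
  refine ⟨H26.isIrrCharacter_of_norm_one (H25.isCharacter_indFun (H := A)
    (H26.isCharacter_of_irr (H26.isIrrCharacter_hom lam))) ?_, hvan⟩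
  have hval : ∀ c ∈ Subgroup.center P,
      Cfsg.indFun A θ c * conj (Cfsg.indFun A θ c) = (A.index : ℂ) ^ 2 := by
    intro c hc
    have h1 := hmul ⟨c, hZA hc⟩ hc 1
    rw [mul_one, H25.indFun_one] at h1
    simp only [θ, map_one, Units.val_one, mul_one] at h1
    rw [h1, map_mul, map_natCast, mul_mul_mul_comm, Complex.mul_conj',
      Complex.norm_eq_one_of_pow_eq_one (n := Nat.card A) ?_ Nat.card_pos.ne']
    · simp [sq]
    · rw [← Units.val_pow_eq_pow_val, ← map_pow, pow_card_eq_one', map_one, Units.val_one]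
  have hi : A.index = p ^ n := by
    have h := A.index_mul_card
    rw [hA, hcard, show p ^ (2 * n + 1) = p ^ n * p ^ (n + 1) by rw [← pow_add]; congr 1; omega] at h
    exact mul_right_cancel₀ (pow_ne_zero _ hp.out.pos.ne') h
  rw [Cfsg.classInner, ← Finset.sum_subset (s₁ := Finset.univ.filter (· ∈ Subgroup.center P))
      (Finset.subset_univ _) (fun g _ hg => by rw [hvan g (by simpa using hg), zero_mul]),
    Finset.sum_congr rfl (g := fun _ => (A.index : ℂ) ^ 2)
      (fun c hc => hval c (Finset.mem_filter.1 hc).2),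
    Finset.sum_const, nsmul_eq_mul, ← Fintype.card_subtype, ← Nat.card_eq_fintype_card]
  have hZ : Nat.card {x // x ∈ Subgroup.center P} = p := hP.2
  have hp0 : (p : ℂ) ≠ 0 := Nat.cast_ne_zero.2 hp.out.pos.ne'
  rw [hZ, hi, hcard, Nat.cast_pow, Nat.cast_pow]
  field_simp
  ring

end Cfsg.Agent.H39
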