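import Cfsg.Agent.H39.Intertwiner
import Cfsg.Agent.H26.CharOrtho

/-!
# Isotypic representations

`IsIsotypic σ τ` says that every nonzero invariant subspace of `τ` contains a copy of the irreducible
representation `σ`; then `τ` is a tensor product of `σ` with its space of intertwining maps.
-/

namespace Cfsg.Agent.H39

open Module TensorProduct

variable {L : Type*} [Group L]
variable {W V V' : Type*} [AddCommGroup W] [Module ℂ W] [AddCommGroup V] [Module ℂ V]
  [AddCommGroup V'] [Module ℂ V']

/-- Every nonzero invariant subspace contains the image of a nonzero map from `σ`. -/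
def IsIsotypic (σ : Representation ℂ L W) (τ : Representation ℂ L V) : Prop :=
  ∀ U : Submodule ℂ V, (∀ g, ∀ v ∈ U, τ g v ∈ U) → U ≠ ⊥ →
    ∃ x : Representation.IntertwiningMap σ τ, x ≠ 0 ∧ LinearMap.range x.toLinearMap ≤ U

lemma intertwining_apply {σ : Representation ℂ L W} {τ : Representation ℂ L V}
    (x : Representation.IntertwiningMap σ τ) (g : L) (w : W) :
    x.toLinearMap (σ g w) = τ g (x.toLinearMap w) :=
  LinearMap.congr_fun (x.isIntertwining' g) w

lemma exists_apply_ne_zero {σ : Representation ℂ L W} {τ : Representation ℂ L V}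
    {x : Representation.IntertwiningMap σ τ} (hx : x ≠ 0) : ∃ w, x.toLinearMap w ≠ 0 := by
  by_contra h
  push Not at h
  exact hx (Representation.IntertwiningMap.ext (LinearMap.ext h))

/-- A nonzero map out of an irreducible representation is injective. -/
lemma injective_of_ne_zero {σ : Representation ℂ L W} [FiniteDimensional ℂ W] [σ.IsIrreducible]
    {τ : Representation ℂ L V} {x : Representation.IntertwiningMap σ τ} (hx : x ≠ 0) :
    Function.Injective x.toLinearMap := by
  rw [← LinearMap.ker_eq_bot]
  refine (((H26.isIrreducible_iff_forall σ).1 inferInstance).2 _ fun g w hw => ?_).resolve_right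
    fun htop => hx (Representation.IntertwiningMap.ext (LinearMap.ker_eq_top.1 htop))
  rw [LinearMap.mem_ker] at hw ⊢
  rw [intertwining_apply, hw, map_zero]

/-- Two irreducible representations with a nonzero map between them have one character. -/
lemma char_eq_of_intertwining_ne_zero [Finite L] {σ : Representation ℂ L W}
    [FiniteDimensional ℂ W] [σ.IsIrreducible] {τ : Representation ℂ L V} [FiniteDimensional ℂ V]
    [τ.IsIrreducible] {x : Representation.IntertwiningMap σ τ} (hx : x ≠ 0) :
    σ.character = τ.character := by
  classical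
  haveI := Fintype.ofFinite L
  by_contra hne
  haveI : Nontrivial (Representation.IntertwiningMap σ τ) := ⟨⟨x, 0, hx⟩⟩
  have h := H26.classInner_irr (⟨_, H26.isIrrCharacter_char τ⟩ : Cfsg.IrrCharacter L)
    ⟨_, H26.isIrrCharacter_char σ⟩
  rw [if_neg (fun e => hne (congrArg Subtype.val e).symm),
    H26.classInner_char_eq_finrank σ τ, Nat.cast_eq_zero] at h
  exact (Module.finrank_pos (R := ℂ) (M := Representation.IntertwiningMap σ τ)).ne' h

/-- An invariant subspace has an invariant complement, stated with projections. -/
lemma exists_equivariant_projection [Finite L] [FiniteDimensional ℂ V] (τ : Representation ℂ L V)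
    (U : Submodule ℂ V) (hU : ∀ g, ∀ v ∈ U, τ g v ∈ U) :
    ∃ π : V →ₗ[ℂ] V, (∀ g v, π (τ g v) = τ g (π v)) ∧ (∀ v, π v ∈ U) ∧ (∀ v ∈ U, π v = v) := by
  obtain ⟨U', hU'⟩ := H26.exists_compl_sub τ ⟨U, fun g v hv => hU g v hv⟩
  let π := U.subtype ∘ₗ U.projectionOnto U'.toSubmodule hU'
  have hfix : ∀ u ∈ U, π u = u := fun u hu => by
    simp only [π, LinearMap.comp_apply]
    exact congrArg Subtype.val (Submodule.projectionOnto_apply_left hU' ⟨u, hu⟩)
  have hzero : ∀ u ∈ U'.toSubmodule, π u = 0 := fun u hu => by
    simp only [π, LinearMap.comp_apply]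
    rw [Submodule.projectionOnto_apply_right hU' ⟨u, hu⟩]
    rfl
  refine ⟨π, fun g v => ?_, fun v => (U.projectionOnto _ hU' v).2, hfix⟩
  obtain ⟨u, hu, u', hu', rfl⟩ := Submodule.mem_sup.1
    (hU'.sup_eq_top ▸ Submodule.mem_top : v ∈ U ⊔ U'.toSubmodule)
  simp only [map_add, hfix u hu, hzero u' hu', hfix _ (hU g u hu),
    hzero _ (U'.apply_mem_toSubmodule g hu'), add_zero]

/-- The evaluation map `Hom_L(W, V) ⊗ W → V`. -/
noncomputable def evalTensor (σ : Representation ℂ L W) (τ : Representation ℂ L V) :
    Representation.IntertwiningMap σ τ ⊗[ℂ] W →ₗ[ℂ] V :=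
  TensorProduct.lift
    { toFun := fun x => x.toLinearMap
      map_add' := fun _ _ => rfl
      map_smul' := fun _ _ => rfl }

lemma evalTensor_tmul (σ : Representation ℂ L W) (τ : Representation ℂ L V)
    (x : Representation.IntertwiningMap σ τ) (w : W) :
    evalTensor σ τ (x ⊗ₜ w) = x.toLinearMap w := rfl

/-- An isotypic representation is spanned by the images of the maps from `σ`. -/
lemma evalTensor_surjective [Finite L] [FiniteDimensional ℂ V] {σ : Representation ℂ L W}
    {τ : Representation ℂ L V} (h : IsIsotypic σ τ) : Function.Surjective (evalTensor σ τ) := by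
  set R := LinearMap.range (evalTensor σ τ)
  have hR : ∀ g, ∀ v ∈ R, τ g v ∈ R := by
    rintro g _ ⟨t, rfl⟩
    induction t using TensorProduct.induction_on with
    | zero => simp [R.zero_mem]
    | tmul x w => exact ⟨x ⊗ₜ σ g w, by rw [evalTensor_tmul, evalTensor_tmul, intertwining_apply]⟩
    | add a b ha hb => rw [map_add, map_add]; exact R.add_mem ha hb
  obtain ⟨π, hπ, hπR, hπfix⟩ := exists_equivariant_projection τ R hR
  rw [← LinearMap.range_eq_top]
  by_contra hne
  obtain ⟨x, hx, hxK⟩ := h (LinearMap.ker π)
    (fun g v hv => by rw [LinearMap.mem_ker] at hv ⊢; rw [hπ, hv, map_zero])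
    (fun hk => hne (eq_top_iff.2 fun v _ => by
      have : v - π v ∈ LinearMap.ker π := by
        rw [LinearMap.mem_ker, map_sub, hπfix _ (hπR v), sub_self]
      rw [hk, Submodule.mem_bot, sub_eq_zero] at this
      rw [this]; exact hπR v))
  obtain ⟨w, hw⟩ := exists_apply_ne_zero hx
  refine hw ?_
  have h1 : π (x.toLinearMap w) = 0 := hxK (LinearMap.mem_range_self _ w)
  rwa [hπfix _ ⟨x ⊗ₜ w, evalTensor_tmul σ τ x w⟩] at h1

/-- The scalar by which Schur's lemma makes two copies of an irreducible representation agree. -/
lemma exists_smul_of_range_le [FiniteDimensional ℂ W] {σ : Representation ℂ L W}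
    [σ.IsIrreducible] {τ : Representation ℂ L V} {x y : Representation.IntertwiningMap σ τ}
    (hx : x ≠ 0) (h : LinearMap.range y.toLinearMap ≤ LinearMap.range x.toLinearMap) :
    ∃ c : ℂ, y = c • x := by
  have hinj := injective_of_ne_zero hx
  let e := LinearEquiv.ofInjective x.toLinearMap hinj
  let F : W →ₗ[ℂ] W := e.symm.toLinearMap ∘ₗ
    (y.toLinearMap.codRestrict (LinearMap.range x.toLinearMap) fun w =>
      h (LinearMap.mem_range_self _ w))
  have hF : ∀ w, x.toLinearMap (F w) = y.toLinearMap w := fun w => by
    have := e.apply_symm_apply ⟨y.toLinearMap w, h (LinearMap.mem_range_self _ w)⟩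
    exact congrArg Subtype.val this
  obtain ⟨c, hc⟩ : ∃ c : ℂ, F = c • LinearMap.id := by
    refine ⟨_, H25.eq_smul_id_of_comm σ F fun g => LinearMap.ext fun w => hinj ?_⟩
    simp only [LinearMap.comp_apply]
    rw [hF, intertwining_apply, intertwining_apply, hF]
  refine ⟨c, Representation.IntertwiningMap.ext (LinearMap.ext fun w => ?_)⟩
  rw [← hF w, hc]
  show x.toLinearMap (c • w) = c • x.toLinearMap w
  rw [map_smul]

/-- For an irreducible `σ` the evaluation map is injective. -/
lemma evalTensor_injective [Finite L] [FiniteDimensional ℂ W] [FiniteDimensional ℂ V]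
    (σ : Representation ℂ L W) [σ.IsIrreducible] (τ : Representation ℂ L V) :
    Function.Injective (evalTensor σ τ) := by
  classical
  let U := Representation.IntertwiningMap σ τ
  let b := Module.finBasis ℂ U
  have key : ∀ s : Finset (Fin (finrank ℂ U)), ∀ w : Fin (finrank ℂ U) → W,
      ∑ i ∈ s, (b i).toLinearMap (w i) = 0 → ∀ i ∈ s, w i = 0 := by
    intro s
    induction s using Finset.induction with
    | empty => intro w _ i hi; exact absurd hi (Finset.notMem_empty i)
    | @insert a s ha ih =>
      intro w hw
      let R : Submodule ℂ V :=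
        LinearMap.range (∑ i ∈ s, (b i).toLinearMap ∘ₗ LinearMap.proj i :
          (Fin (finrank ℂ U) → W) →ₗ[ℂ] V)
      have hR : ∀ g, ∀ v ∈ R, τ g v ∈ R := by
        rintro g _ ⟨u, rfl⟩
        refine ⟨fun i => σ g (u i), ?_⟩
        simp only [LinearMap.sum_apply, LinearMap.comp_apply, LinearMap.proj_apply, map_sum,
          intertwining_apply]
      by_cases hwa : w a = 0
      · intro i hi
        rcases Finset.mem_insert.1 hi with rfl | hi
        · exact hwa
        · rw [Finset.sum_insert ha, hwa, map_zero, zero_add] at hw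
          exact ih w hw i hi
      · exfalso
        rw [Finset.sum_insert ha] at hw
        let S : Submodule ℂ W := R.comap (b a).toLinearMap
        have hS : S = ⊤ := by
          refine (((H26.isIrreducible_iff_forall σ).1 inferInstance).2 S fun g v hv => ?_).resolve_left
            fun hbot => hwa ?_
          · show (b a).toLinearMap (σ g v) ∈ R
            rw [intertwining_apply]
            exact hR g _ hv
          · have hmem : w a ∈ S := by
              show (b a).toLinearMap (w a) ∈ R
              rw [eq_neg_of_add_eq_zero_left hw]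
              exact R.neg_mem ⟨w, by simp⟩
            rwa [hbot, Submodule.mem_bot] at hmem
        have hRa : ∀ v, (b a).toLinearMap v ∈ R := fun v => (hS ▸ Submodule.mem_top : v ∈ S)
        -- express `b a` through the others
        choose u hu using fun v => hRa v
        have hadd : ∀ v v', u (v + v') - (u v + u v') ∈
            {z : Fin (finrank ℂ U) → W | ∀ i ∈ s, z i = 0} := by
          intro v v'
          refine ih _ ?_
          have h1 := hu (v + v')
          rw [map_add, ← hu v, ← hu v'] at h1
          simp only [LinearMap.sum_apply, LinearMap.comp_apply, LinearMap.proj_apply] at h1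
          simp only [Pi.sub_apply, Pi.add_apply, map_sub, map_add, Finset.sum_sub_distrib,
            Finset.sum_add_distrib, h1, sub_self]
        have hsmul : ∀ (c : ℂ) v, u (c • v) - c • u v ∈
            {z : Fin (finrank ℂ U) → W | ∀ i ∈ s, z i = 0} := by
          intro c v
          refine ih _ ?_
          have h1 := hu (c • v)
          rw [map_smul, ← hu v] at h1
          simp only [LinearMap.sum_apply, LinearMap.comp_apply, LinearMap.proj_apply] at h1
          simp only [Pi.sub_apply, Pi.smul_apply, map_sub, map_smul, Finset.sum_sub_distrib,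
            h1, ← Finset.smul_sum, sub_self]
        have hcomm : ∀ g v, (fun i => u (σ g v) i - σ g (u v i)) ∈
            {z : Fin (finrank ℂ U) → W | ∀ i ∈ s, z i = 0} := by
          intro g v
          refine ih _ ?_
          have h1 := hu (σ g v)
          rw [intertwining_apply, ← hu v] at h1
          simp only [LinearMap.sum_apply, LinearMap.comp_apply, LinearMap.proj_apply, map_sum] at h1
          simp only [map_sub, Finset.sum_sub_distrib, intertwining_apply, h1, sub_self]
        have hc : ∀ i ∈ s, ∃ c : ℂ, ∀ v, u v i = c • v := by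
          intro i hi
          let F : W →ₗ[ℂ] W :=
            { toFun := fun v => u v i
              map_add' := fun v v' => sub_eq_zero.1 (hadd v v' i hi)
              map_smul' := fun c v => sub_eq_zero.1 (hsmul c v i hi) }
          exact ⟨_, fun v => LinearMap.congr_fun (H25.eq_smul_id_of_comm σ F
            fun g => LinearMap.ext fun v => sub_eq_zero.1 (hcomm g v i hi)) v⟩
        choose c hc using hc
        have hba : b a = ∑ i ∈ s.attach, c i.1 i.2 • b i.1 := by
          apply Representation.IntertwiningMap.ext
          refine LinearMap.ext fun v => ?_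
          have hlin : (∑ i ∈ s.attach, c i.1 i.2 • b i.1 : U).toLinearMap v =
              ∑ i ∈ s.attach, c i.1 i.2 • (b i.1).toLinearMap v := by
            let toL : U →ₗ[ℂ] (W →ₗ[ℂ] V) :=
              { toFun := fun x => x.toLinearMap, map_add' := fun _ _ => rfl,
                map_smul' := fun _ _ => rfl }
            show toL _ v = _
            rw [map_sum, LinearMap.sum_apply]
            exact Finset.sum_congr rfl fun i _ => rfl
          rw [hlin, ← hu v]
          simp only [LinearMap.sum_apply, LinearMap.comp_apply, LinearMap.proj_apply]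
          rw [← Finset.sum_attach]
          exact Finset.sum_congr rfl fun i _ => by rw [hc i.1 i.2, map_smul]
        exact ha (by
          by_contra
          have hrep := congrArg (fun x => b.repr x a) hba
          simp only [map_sum, map_smul, Finsupp.coe_finsetSum, Finset.sum_apply,
            Finsupp.smul_apply, Basis.repr_self, Finsupp.single_apply, if_true] at hrep
          rw [Finset.sum_eq_zero fun i _ => by
            rw [if_neg fun e : (i : Fin _) = a => ha (e ▸ i.2), smul_zero]] at hrep
          exact one_ne_zero hrep)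
  let e : (Fin (finrank ℂ U) →₀ W) ≃ₗ[ℂ] U ⊗[ℂ] W :=
    (TensorProduct.equivFinsuppOfBasisLeft b).symm
  intro t t' htt
  obtain ⟨f, rfl⟩ := e.surjective t
  obtain ⟨f', rfl⟩ := e.surjective t'
  congr 1
  have hev : ∀ g : Fin (finrank ℂ U) →₀ W,
      evalTensor σ τ (e g) = ∑ i, (b i).toLinearMap (g i) := by
    intro g
    show evalTensor σ τ ((TensorProduct.equivFinsuppOfBasisLeft b).symm g) = _
    rw [TensorProduct.equivFinsuppOfBasisLeft_symm_apply, map_finsuppSum,
      Finsupp.sum_fintype _ _ (fun i => by simp)]
    exact Finset.sum_congr rfl fun i _ => evalTensor_tmul σ τ _ _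
  rw [hev, hev, ← sub_eq_zero, ← Finset.sum_sub_distrib] at htt
  ext i
  refine sub_eq_zero.1 (key Finset.univ (fun i => f i - f' i) ?_ i (Finset.mem_univ i))
  simpa only [map_sub] using htt

/-- Isotypic representations: the evaluation isomorphism. -/
noncomputable def evalEquiv [Finite L] [FiniteDimensional ℂ W] [FiniteDimensional ℂ V]
    (σ : Representation ℂ L W) [σ.IsIrreducible] (τ : Representation ℂ L V)
    (h : IsIsotypic σ τ) : Representation.IntertwiningMap σ τ ⊗[ℂ] W ≃ₗ[ℂ] V :=
  LinearEquiv.ofBijective (evalTensor σ τ) ⟨evalTensor_injective σ τ, evalTensor_surjective h⟩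

/-- The character of an isotypic representation. -/
lemma char_eq_of_isotypic [Finite L] [FiniteDimensional ℂ W] [FiniteDimensional ℂ V]
    {σ : Representation ℂ L W} [σ.IsIrreducible] {τ : Representation ℂ L V}
    (h : IsIsotypic σ τ) :
    τ.character = (finrank ℂ (Representation.IntertwiningMap σ τ) : ℂ) • σ.character := by
  let triv : Representation ℂ L (Representation.IntertwiningMap σ τ) :=
    Representation.trivial ℂ L _
  have he : ∀ g t, evalEquiv σ τ h ((triv.tprod σ) g t) = τ g (evalEquiv σ τ h t) := by
    intro g t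
    induction t using TensorProduct.induction_on with
    | zero => simp
    | tmul x w =>
      show evalTensor σ τ (x ⊗ₜ σ g w) = τ g (evalTensor σ τ (x ⊗ₜ w))
      rw [evalTensor_tmul, evalTensor_tmul, intertwining_apply]
    | add a b ha hb => simp only [map_add, ha, hb]
  have hc : τ.character = (triv.tprod σ).character :=
    (Representation.char_iso (Representation.Equiv.mk (evalEquiv σ τ h)
      fun g => LinearMap.ext (he g))).symm
  rw [hc, Representation.char_tensor]
  funext g
  simp [triv, Representation.character]

/-- An irreducible representation is isotypic for every copy of itself. -/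
lemma isIsotypic_of_char_eq_smul [Finite L] [FiniteDimensional ℂ W] [FiniteDimensional ℂ V]
    {σ : Representation ℂ L W} [σ.IsIrreducible] {τ : Representation ℂ L V} (e : ℂ)
    (h : τ.character = e • σ.character) : IsIsotypic σ τ := by
  classical
  haveI := Fintype.ofFinite L
  intro U hU hU0
  let S : Subrepresentation τ := ⟨U, fun g v hv => hU g v hv⟩
  haveI : Nontrivial S.toSubmodule := Submodule.nontrivial_iff_ne_bot.2 hU0
  obtain ⟨T, hT⟩ := H26.exists_irreducible_sub S.toRepresentation
  let i : Representation.IntertwiningMap T.toRepresentation τ :=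
    ⟨U.subtype ∘ₗ T.toSubmodule.subtype, fun g => rfl⟩
  have hi : i ≠ 0 := by
    intro h0
    obtain ⟨hTn, -⟩ := (H26.isIrreducible_iff_forall _).1 hT
    obtain ⟨v, hv⟩ := exists_ne (0 : T.toSubmodule)
    exact hv (Subtype.ext (Subtype.ext (LinearMap.congr_fun
      (congrArg Representation.IntertwiningMap.toLinearMap h0) v)))
  haveI : Nontrivial (Representation.IntertwiningMap T.toRepresentation τ) := ⟨⟨i, 0, hi⟩⟩
  have hne : Cfsg.classInner τ.character T.toRepresentation.character ≠ 0 := by
    rw [H26.classInner_char_eq_finrank T.toRepresentation τ, Nat.cast_ne_zero]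
    exact Module.finrank_pos.ne'
  have hchar : T.toRepresentation.character = σ.character := by
    by_contra hne2
    apply hne
    have h0 := H26.classInner_irr (⟨_, H26.isIrrCharacter_char σ⟩ : Cfsg.IrrCharacter L)
      ⟨_, H26.isIrrCharacter_char T.toRepresentation⟩
    rw [if_neg (fun e' => hne2 (congrArg Subtype.val e').symm)] at h0
    rw [h, H26.classInner_smul_left, h0, mul_zero]
  obtain ⟨e', he'⟩ := exists_equiv_of_char_eq_irreducible σ T.toRepresentation hchar
  refine ⟨⟨i.toLinearMap ∘ₗ e'.toLinearMap, fun g => LinearMap.ext fun w => ?_⟩, ?_, ?_⟩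
  · simp only [LinearMap.comp_apply, LinearEquiv.coe_coe]
    rw [he', intertwining_apply]
  · intro h0
    apply hi
    refine Representation.IntertwiningMap.ext (LinearMap.ext fun v => ?_)
    have := LinearMap.congr_fun (congrArg Representation.IntertwiningMap.toLinearMap h0) (e'.symm v)
    simpa using this
  · rintro _ ⟨w, rfl⟩
    exact ((e' w : T.toSubmodule).1).2

/-- Isotypy passes to representations that embed. -/
lemma IsIsotypic.of_injective [Finite L] [FiniteDimensional ℂ W] [FiniteDimensional ℂ V]
    {σ : Representation ℂ L W} [σ.IsIrreducible] {τ : Representation ℂ L V}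
    {τ' : Representation ℂ L V'} (h : IsIsotypic σ τ') (i : Representation.IntertwiningMap τ τ')
    (hi : Function.Injective i.toLinearMap) : IsIsotypic σ τ := by
  intro U hU hU0
  obtain ⟨x, hx, hxU⟩ := h (U.map i.toLinearMap)
    (by rintro g _ ⟨v, hv, rfl⟩; exact ⟨τ g v, hU g v hv, intertwining_apply i g v⟩)
    (fun h0 => hU0 (Submodule.map_injective_of_injective hi (h0.trans (Submodule.map_bot _).symm)))
  choose u huU hu using fun w => hxU (LinearMap.mem_range_self x.toLinearMap w)
  let y : W →ₗ[ℂ] V :=
    { toFun := u
      map_add' := fun a b => hi (by rw [map_add, hu, hu, hu, map_add])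
      map_smul' := fun c a => hi (by rw [map_smul, hu, hu, map_smul]; rfl) }
  refine ⟨⟨y, fun g => LinearMap.ext fun w => hi ?_⟩, fun h0 => hx ?_, ?_⟩
  · show i.toLinearMap (u (σ g w)) = i.toLinearMap (τ g (u w))
    rw [intertwining_apply, hu, hu, intertwining_apply]
  · refine Representation.IntertwiningMap.ext (LinearMap.ext fun w => ?_)
    rw [← hu w, show u w = 0 from LinearMap.congr_fun
      (congrArg Representation.IntertwiningMap.toLinearMap h0) w, map_zero]
    rfl
  · rintro _ ⟨w, rfl⟩
    exact huU w

/-- Between isotypic representations of one type, some map does not vanish at a given vector. -/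
lemma exists_intertwining_apply_ne_zero [Finite L] [FiniteDimensional ℂ W] [FiniteDimensional ℂ V]
    [FiniteDimensional ℂ V'] [Nontrivial V'] {σ : Representation ℂ L W} [σ.IsIrreducible]
    {τ : Representation ℂ L V} {τ' : Representation ℂ L V'} (h : IsIsotypic σ τ)
    (h' : IsIsotypic σ τ') {v : V} (hv : v ≠ 0) :
    ∃ G₀ : Representation.IntertwiningMap τ τ', G₀.toLinearMap v ≠ 0 := by
  classical
  obtain ⟨y, hy, -⟩ := h' ⊤ (fun _ _ _ => Submodule.mem_top) top_ne_bot
  obtain ⟨t, rfl⟩ := (evalEquiv σ τ h).surjective v
  have ht : t ≠ 0 := fun h0 => hv (by rw [h0, map_zero])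
  let b := Module.finBasis ℂ (Representation.IntertwiningMap σ τ)
  obtain ⟨i, hti⟩ : ∃ i, TensorProduct.equivFinsuppOfBasisLeft b t i ≠ 0 := by
    by_contra hall
    push Not at hall
    exact ht ((TensorProduct.equivFinsuppOfBasisLeft b).injective
      (Finsupp.ext fun i => by rw [hall i, map_zero]; rfl))
  let cL : Representation.IntertwiningMap σ τ ⊗[ℂ] W →ₗ[ℂ] W :=
    Finsupp.lapply i ∘ₗ (TensorProduct.equivFinsuppOfBasisLeft b).toLinearMap
  let G : V →ₗ[ℂ] V' := y.toLinearMap ∘ₗ cL ∘ₗ (evalEquiv σ τ h).symm.toLinearMap
  have hG : ∀ s, G (evalEquiv σ τ h s) = y.toLinearMap (cL s) := fun s => by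
    simp [G]
  refine ⟨⟨G, fun g => LinearMap.ext fun u => ?_⟩, ?_⟩
  · obtain ⟨s, rfl⟩ := (evalEquiv σ τ h).surjective u
    show G (τ g (evalEquiv σ τ h s)) = τ' g (G (evalEquiv σ τ h s))
    rw [hG]
    induction s using TensorProduct.induction_on with
    | zero => simp
    | tmul x w =>
      have h1 : τ g (evalEquiv σ τ h (x ⊗ₜ w)) = evalEquiv σ τ h (x ⊗ₜ σ g w) := by
        show τ g (evalTensor σ τ (x ⊗ₜ w)) = evalTensor σ τ (x ⊗ₜ σ g w)
        rw [evalTensor_tmul, evalTensor_tmul, intertwining_apply]
      rw [h1, hG]
      have h2 : ∀ w' : W, cL (x ⊗ₜ w') = b.repr x i • w' := fun w' => by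
        simp [cL, TensorProduct.equivFinsuppOfBasisLeft_apply_tmul]
      rw [h2, h2, map_smul, map_smul, map_smul, intertwining_apply]
    | add a a' ha ha' => simp only [map_add, ha, ha']
  · show G (evalEquiv σ τ h t) ≠ 0
    rw [hG]
    exact fun h0 => hti (injective_of_ne_zero hy (h0.trans (map_zero _).symm))

end Cfsg.Agent.H39
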