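import Cfsg.Agent.H39.ElemExt

/-!
# Extension from a Sylow subgroup with central intersection
-/

namespace Cfsg.Agent.H39

universe u

open scoped ComplexConjugate

variable {G : Type u} [Group G] [Fintype G]

/-- Extend a linear character of a subgroup of a finite abelian group. -/
lemma exists_hom_ext_of_comm {A : Type*} [Group A] [Finite A] (hA : ∀ a b : A, a * b = b * a)
    (B : Subgroup A) (f : B →* ℂˣ) : ∃ F : A →* ℂˣ, ∀ b : B, F b = f b := by
  letI : CommGroup A := { (inferInstance : Group A) with mul_comm := hA }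
  haveI : NeZero (Monoid.exponent A) := ⟨Monoid.exponent_ne_zero_of_finite⟩
  obtain ⟨F, hF⟩ := MonoidHom.domRestrict_surjective (M := ℂ) B f
  exact ⟨F, fun b => DFunLike.congr_fun hF b⟩

/-- An invariant irreducible character of a normal subgroup of `p`-power index extends when the
Sylow intersection is central with extendible linear characters. -/
theorem exists_ext_of_sylow_central {p : ℕ} [hp : Fact p.Prime] (N : Subgroup G) [hN : N.Normal]
    [Fintype N] (hind : ∃ k, N.index = p ^ k) (P : Sylow p G)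
    (hcent : ∀ x ∈ (P : Subgroup G) ⊓ N, ∀ y ∈ (P : Subgroup G), x * y = y * x)
    (hlin : ∀ l : ↥((P : Subgroup G) ⊓ N) →* ℂˣ, ∃ μ : ↥(P : Subgroup G) →* ℂˣ,
      ∀ x : ↥((P : Subgroup G) ⊓ N), μ ⟨x, x.2.1⟩ = l x)
    {ϑ : N → ℂ} (hϑ : Cfsg.IsIrrCharacter N ϑ)
    (hinv : ∀ (g : G) (n : N), ϑ (conjN g n) = ϑ n) :
    ∃ χ : G → ℂ, Cfsg.IsIrrCharacter G χ ∧ ∀ n : N, χ n = ϑ n := by
  classical
  obtain ⟨E, ψ, hE, htop, hfix, c, hpc, hc⟩ :=
    exists_elementary_constituent N hp.out hind hϑ hinv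
  obtain ⟨k, hk⟩ := hind
  obtain ⟨x, hx, hcx, j, hj⟩ := hE
  set Z := Subgroup.zpowers x with hZdef
  have hZc : Z ≤ Subgroup.center E := by rwa [hZdef, Subgroup.zpowers_le]
  have hxN : (x : G) ∈ N := by
    have hmem : (x : G) ^ p ^ k ∈ N := by
      rw [← hk, ← QuotientGroup.eq_one_iff, QuotientGroup.mk_pow, Subgroup.index_eq_card]
      exact pow_card_eq_one'
    obtain ⟨i, hi⟩ := exists_pow_eq_self_of_coprime
      (x := (x : G)) (n := p ^ k) (by rw [Subgroup.orderOf_coe]; exact (hcx.pow_right k).symm)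
    rw [← hi]
    exact pow_mem hmem i
  have hZN : ∀ z : E, z ∈ Z → (z : G) ∈ N := fun z hz => by
    obtain ⟨i, rfl⟩ := Subgroup.mem_zpowers_iff.1 hz
    rw [SubgroupClass.coe_zpow]
    exact zpow_mem hxN i
  obtain ⟨Q⟩ : Nonempty (Sylow p E) := inferInstance
  haveI : Z.Normal := ⟨fun a ha g => by
    rwa [Subgroup.mem_center_iff.1 (hZc ha) g, mul_inv_cancel_right]⟩
  have hZQ : Z ⊔ (Q : Subgroup E) = ⊤ := by
    rw [← Subgroup.index_eq_one]
    have h1 : (Z ⊔ (Q : Subgroup E)).index ∣ p ^ j := hj ▸ Subgroup.index_dvd_of_le le_sup_left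
    obtain ⟨i, -, hi⟩ := (Nat.dvd_prime_pow hp.out).1 h1
    rcases Nat.eq_zero_or_pos i with rfl | hpos
    · simpa using hi
    · exfalso
      exact Q.not_dvd_index ((hi ▸ dvd_pow_self p hpos.ne').trans
        (Subgroup.index_dvd_of_le le_sup_right))
  -- move `Q` into `P`
  obtain ⟨R, hR⟩ := (Q.isPGroup'.map E.subtype).exists_le_sylow
  obtain ⟨g, hg⟩ := MulAction.exists_smul_eq G R P
  have hmove : ∀ q ∈ (Q : Subgroup E), g * (q : G) * g⁻¹ ∈ (P : Subgroup G) := by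
    intro q hq
    rw [← hg]
    have h1 := hR (Subgroup.mem_map_of_mem E.subtype hq)
    exact Subgroup.smul_mem_pointwise_smul _ (MulAut.conj g) _ h1
  have hQcent : ∀ q ∈ (Q : Subgroup E), (q : G) ∈ N → q ∈ Subgroup.center E := by
    intro q hq hqN
    refine Subgroup.mem_center_iff.2 fun e => ?_
    obtain ⟨z, hz, q', hq', rfl⟩ :=
      Subgroup.mem_sup_of_normal_left.1 (hZQ ▸ Subgroup.mem_top e : e ∈ Z ⊔ (Q : Subgroup E))
    have h1 := hcent _ ⟨hmove q hq, hN.conj_mem _ hqN g⟩ _ (hmove q' hq')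
    have h2 : q' * q = q * q' := Subtype.ext (by
      show (q' : G) * q = q * q'
      have h3 : g * ((q : G) * q') * g⁻¹ = g * ((q' : G) * q) * g⁻¹ := by
        simpa [mul_assoc] using h1
      exact (mul_left_cancel (mul_right_cancel h3)).symm)
    rw [mul_assoc, h2, ← mul_assoc, ← mul_assoc, Subgroup.mem_center_iff.1 (hZc hz) q]
  have hdecomp : ∀ d : ↥(E ⊓ N), ∃ z ∈ Z, ∃ q ∈ (Q : Subgroup E),
      (q : G) ∈ N ∧ z * q = (⟨d, d.2.1⟩ : E) := by
    intro d
    obtain ⟨z, hz, q, hq, h⟩ := Subgroup.mem_sup_of_normal_left.1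
      (hZQ ▸ Subgroup.mem_top (⟨d, d.2.1⟩ : E) : (⟨d, d.2.1⟩ : E) ∈ Z ⊔ (Q : Subgroup E))
    refine ⟨z, hz, q, hq, ?_, h⟩
    have h1 : (z : G) * q ∈ N := by
      rw [← Subgroup.coe_mul, h]
      exact d.2.2
    exact (N.mul_mem_cancel_left (hZN z hz)).1 h1
  have hDcomm : ∀ a b : ↥(E ⊓ N), a * b = b * a := by
    intro a b
    obtain ⟨z, hz, q, hq, hqN, h⟩ := hdecomp a
    have hc' : (⟨a, a.2.1⟩ : E) ∈ Subgroup.center E :=
      h ▸ mul_mem (hZc hz) (hQcent q hq hqN)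
    exact Subtype.ext (congrArg Subtype.val (Subgroup.mem_center_iff.1 hc' ⟨b, b.2.1⟩)).symm
  obtain ⟨f, hf⟩ := H26.exists_hom_of_isCharacter_one (H26.irr_isCharacter ψ)
    (H26.irr_one_eq_one_of_comm hDcomm ψ)
  -- extend on the `p`-part
  let Q₀ : Subgroup (Q : Subgroup E) := (N.subgroupOf E).subgroupOf (Q : Subgroup E)
  let toP : (Q : Subgroup E) →* (P : Subgroup G) :=
    ((MulAut.conj g).toMonoidHom.comp (E.subtype.comp (Q : Subgroup E).subtype)).codRestrict _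
      fun q => hmove q q.2
  let jmap : Q₀ →* ↥((P : Subgroup G) ⊓ N) :=
    ((MulAut.conj g).toMonoidHom.comp ((E.subtype.comp (Q : Subgroup E).subtype).comp
      Q₀.subtype)).codRestrict _
      fun q => Subgroup.mem_inf.2 ⟨hmove q.1 q.1.2, hN.conj_mem _ q.2 g⟩
  have hjinj : Function.Injective jmap := fun a b h => by
    have h1 := congrArg Subtype.val h
    simpa [jmap] using h1
  let toD : Q₀ →* ↥(E ⊓ N) :=
    ((E.subtype.comp (Q : Subgroup E).subtype).comp Q₀.subtype).codRestrict _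
      fun q => ⟨q.1.1.2, q.2⟩
  obtain ⟨Λ, hΛ⟩ := exists_hom_ext_of_comm
    (fun a b => Subtype.ext (hcent a a.2 b b.2.1)) jmap.range
    ((f.comp toD).comp (MonoidHom.ofInjective hjinj).symm.toMonoidHom)
  obtain ⟨μP, hμP⟩ := hlin Λ
  let ν : (Q : Subgroup E) →* ℂˣ := μP.comp toP
  have hν : ∀ q : Q₀, ν q.1 = f (toD q) := by
    intro q
    show μP (toP q.1) = _
    have h1 : toP q.1 = ⟨(jmap q : G), (jmap q).2.1⟩ := rfl
    rw [h1, hμP]
    have h2 := hΛ ⟨jmap q, q, rfl⟩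
    rw [h2]
    show f (toD ((MonoidHom.ofInjective hjinj).symm ⟨jmap q, _⟩)) = _
    congr 2
    exact (MonoidHom.ofInjective hjinj).symm_apply_apply q
  -- the central part
  let toDZ : Z →* ↥(E ⊓ N) :=
    (E.subtype.comp Z.subtype).codRestrict _ fun z => ⟨z.1.2, hZN z z.2⟩
  let Φ : Z × (Q : Subgroup E) →* E := Z.subtype.noncommCoprod (Q : Subgroup E).subtype
    fun z q => (Subgroup.mem_center_iff.1 (hZc z.2) q).symm
  have hΦ : Function.Bijective Φ := by
    constructor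
    · rw [injective_iff_map_eq_one]
      rintro ⟨z, q⟩ h
      change (z : E) * (q : E) = 1 at h
      have hq : (q : E) ∈ Z := by
        rw [eq_inv_of_mul_eq_one_right h]
        exact inv_mem z.2
      obtain ⟨i, hi⟩ := Q.isPGroup'.exists_card_eq
      have hq1 : (q : E) = 1 := by
        rw [← orderOf_eq_one_iff]
        refine Nat.eq_one_of_dvd_coprimes (hcx.pow_right i) ?_ (hi ▸ Subgroup.orderOf_dvd_natCard _ q.2)
        have := Subgroup.orderOf_dvd_natCard Z hq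
        rwa [hZdef, Nat.card_zpowers] at this
      rw [hq1, mul_one] at h
      exact Prod.ext (Subtype.ext h) (Subtype.ext hq1)
    · intro e
      obtain ⟨z, hz, q, hq, rfl⟩ :=
        Subgroup.mem_sup_of_normal_left.1 (hZQ ▸ Subgroup.mem_top e : e ∈ Z ⊔ (Q : Subgroup E))
      exact ⟨(⟨z, hz⟩, ⟨q, hq⟩), rfl⟩
  let μ : E →* ℂˣ := ((f.comp toDZ).coprod ν).comp (MulEquiv.ofBijective Φ hΦ).symm.toMonoidHom
  have hμ : ∀ d : ↥(E ⊓ N), (μ ⟨d, d.2.1⟩ : ℂ) = ψ.1 d := by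
    intro d
    obtain ⟨z, hz, q, hq, hqN, h⟩ := hdecomp d
    have h1 : (MulEquiv.ofBijective Φ hΦ).symm ⟨d, d.2.1⟩ = (⟨z, hz⟩, ⟨q, hq⟩) := by
      rw [MulEquiv.symm_apply_eq, ← h]
      rfl
    show (((f.comp toDZ).coprod ν) ((MulEquiv.ofBijective Φ hΦ).symm ⟨d, d.2.1⟩) : ℂ) = _
    rw [h1, MonoidHom.coprod_apply, show ν ⟨q, hq⟩ = f (toD ⟨⟨q, hq⟩, hqN⟩) from
      hν ⟨⟨q, hq⟩, hqN⟩, MonoidHom.comp_apply, ← map_mul, hf]
    have h' : (z : G) * (q : G) = (d : G) := congrArg Subtype.val h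
    exact congrArg ψ.1 (Subtype.ext h')
  -- induce
  have hchar := H25.isCharacter_indFun (H := E)
    (H26.isCharacter_of_irr (H26.isIrrCharacter_hom μ))
  obtain ⟨a, -, hexp⟩ := H26.exists_nat_coeffs hchar
  have hval : Cfsg.classInner (fun n : N => Cfsg.indFun E (fun e => (μ e : ℂ)) n) ϑ = (c : ℂ) := by
    rw [classInner_indFun_restrict E N _ ϑ hinv, htop, Subgroup.index_top, Nat.cast_one, one_mul,
      H26.classInner_comm, ← map_natCast (starRingEnd ℂ) c]
    congr 1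
    rw [← hc]
    simp only [hμ]
  choose e he using fun χ : Cfsg.IrrCharacter G =>
    H26.exists_nat_classInner_irr (χ := fun n : N => χ.1 n)
      (H26.isCharacter_comp (H26.irr_isCharacter χ) N.subtype) (⟨ϑ, hϑ⟩ : Cfsg.IrrCharacter N)
  have hsum : c = ∑ χ : Cfsg.IrrCharacter G, a χ * e χ := by
    have h1 : (c : ℂ) = ((∑ χ : Cfsg.IrrCharacter G, a χ * e χ : ℕ) : ℂ) := by
      rw [← hval]
      have h2 : (fun n : N => Cfsg.indFun E (fun e => (μ e : ℂ)) n) =
          ∑ χ : Cfsg.IrrCharacter G, (a χ : ℂ) • fun n : N => χ.1 n := by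
        funext n
        rw [congrFun hexp n]
        simp [Finset.sum_apply]
      rw [h2, H26.classInner_sum_left, Nat.cast_sum]
      exact Finset.sum_congr rfl fun χ _ => by rw [H26.classInner_smul_left, he χ, Nat.cast_mul]
    exact_mod_cast h1
  obtain ⟨χ, hχ⟩ : ∃ χ : Cfsg.IrrCharacter G, ¬ p ∣ e χ := by
    by_contra h
    push Not at h
    exact hpc (hsum ▸ Finset.dvd_sum fun χ _ => dvd_mul_of_dvd_right (h χ) _)
  exact ⟨χ.1, χ.2, congrFun (restrict_eq_of_not_dvd N hp.out hk χ.2 hϑ hinv (he χ) hχ)⟩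

end Cfsg.Agent.H39
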